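import Mathlib

/-! A Sylow `p`-subgroup of `A_n`, `n ≥ 6`, is abelian exactly when `n < p²`. -/

set_option autoImplicit false

namespace Cfsg.Agent.H94

open Equiv

/-- The triangular permutations of `ZMod p × ZMod p`. -/
def triangularPerms (p : ℕ) : Subgroup (Perm (ZMod p × ZMod p)) where
  carrier := {σ | ∃ s a b : ZMod p, ∀ i j, σ (i, j) = (i + s, j + a + b * i)}
  one_mem' := ⟨0, 0, 0, fun i j => by simp⟩
  mul_mem' := by
    rintro σ τ ⟨s, a, b, h⟩ ⟨s', a', b', h'⟩
    refine ⟨s' + s, a' + a + b * s', b' + b, fun i j => ?_⟩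
    rw [Perm.mul_apply, h', h]
    ext <;> simp only <;> ring
  inv_mem' := by
    rintro σ ⟨s, a, b, h⟩
    refine ⟨-s, -a + b * s, -b, fun i j => ?_⟩
    rw [Perm.inv_def, Equiv.symm_apply_eq, h]
    ext <;> simp only <;> ring

/-- The triangular permutations form a `p`-group. -/
theorem isPGroup_triangularPerms (p : ℕ) : IsPGroup p (triangularPerms p) := by
  rintro ⟨σ, s, a, b, h⟩
  refine ⟨2, ?_⟩
  have key : ∀ n : ℕ, ∃ c : ZMod p, ∀ i j,
      (σ ^ n) (i, j) = (i + n * s, j + c + n * b * i) := by
    intro n
    induction n with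
    | zero => exact ⟨0, fun i j => by simp⟩
    | succ n ih =>
      obtain ⟨c, hc⟩ := ih
      refine ⟨c + a + b * (n * s), fun i j => ?_⟩
      rw [pow_succ', Perm.mul_apply, hc, h]
      ext <;> push_cast <;> ring
  obtain ⟨c, hc⟩ := key p
  apply Subtype.ext
  show σ ^ p ^ 2 = 1
  rw [sq, pow_mul]
  ext ⟨i, j⟩ : 1
  have : ∀ (n : ℕ) (i j : ZMod p), ((σ ^ p) ^ n) (i, j) = (i, j + n * c) := by
    intro n
    induction n with
    | zero => simp
    | succ n ih =>
      intro i j
      rw [pow_succ', Perm.mul_apply, ih, hc]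
      ext <;> simp; ring
  simp [this]

/-- The triangular permutations do not commute with each other. -/
theorem triangularPerms_not_comm (p : ℕ) [Fact p.Prime] :
    ∃ σ ∈ triangularPerms p, ∃ τ ∈ triangularPerms p, σ * τ ≠ τ * σ := by
  let σ : Perm (ZMod p × ZMod p) := (Equiv.addRight 1).prodCongr (Equiv.refl _)
  let τ : Perm (ZMod p × ZMod p) :=
    ⟨fun x => (x.1, x.2 + x.1), fun x => (x.1, x.2 - x.1), fun x => by simp, fun x => by simp⟩
  refine ⟨σ, ⟨1, 0, 0, fun i j => by simp [σ]⟩, τ, ⟨0, 0, 1, fun i j => by simp [τ]⟩, fun h => ?_⟩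
  have := congrArg (fun f => (f (0, 0)).2) h
  simp [σ, τ, Perm.mul_apply] at this

/-- The embedding of `Perm α` into the even permutations of `α ⊕ Fin 2`. -/
noncomputable def evenEmb (α : Type*) [DecidableEq α] [Fintype α] :
    Perm α →* Perm (α ⊕ Fin 2) :=
  (Perm.sumCongrHom α (Fin 2)).comp
    ((MonoidHom.id _).prod (((MulEquiv.ofBijective (Perm.sign (α := Fin 2))
      (by decide)).symm.toMonoidHom).comp Perm.sign))

/-- The embedding has values of sign one. -/
theorem sign_evenEmb {α : Type*} [DecidableEq α] [Fintype α] (σ : Perm α) :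
    Perm.sign (evenEmb α σ) = 1 := by
  set e := MulEquiv.ofBijective (Perm.sign (α := Fin 2)) (by decide)
  show Perm.sign (Perm.sumCongr σ (e.symm (Perm.sign σ))) = 1
  rw [Perm.sign_sumCongr, show Perm.sign (e.symm (Perm.sign σ)) = Perm.sign σ from
    e.apply_symm_apply _]
  exact Int.units_mul_self _

/-- The embedding is injective. -/
theorem evenEmb_injective (α : Type*) [DecidableEq α] [Fintype α] :
    Function.Injective (evenEmb α) := by
  intro σ τ h
  ext x
  have := congrArg (fun f : Perm (α ⊕ Fin 2) => f (Sum.inl x)) h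
  simpa [evenEmb] using this

/-- A commutative Sylow subgroup forces elements of every `p`-subgroup to commute. -/
theorem commute_of_sylow_comm {G : Type*} [Group G] [Finite G] {p : ℕ} [Fact p.Prime]
    (S : Sylow p G) (hS : IsMulCommutative S) (K : Subgroup G) (hK : IsPGroup p K) {x y : G}
    (hx : x ∈ K) (hy : y ∈ K) : x * y = y * x := by
  obtain ⟨T, hT⟩ := hK.exists_le_sylow
  let e : T ≃* S := Sylow.equiv T S
  have h : (⟨x, hT hx⟩ : T) * ⟨y, hT hy⟩ = ⟨y, hT hy⟩ * ⟨x, hT hx⟩ := by
    apply e.injective
    rw [map_mul, map_mul]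
    exact hS.is_comm.comm _ _
  exact congrArg Subtype.val h

/-- An injective sign-one image of a noncommutative `p`-group refutes commutativity of a Sylow subgroup of `A_n`. -/
theorem not_comm_of_emb {n p : ℕ} [Fact p.Prime] (S : Sylow p (alternatingGroup (Fin n)))
    {α : Type*} [DecidableEq α] [Fintype α] (f : Perm (ZMod p × ZMod p) →* Perm α)
    (hf : Function.Injective f) (hsign : ∀ σ ∈ triangularPerms p, Perm.sign (f σ) = 1)
    (hn : Fintype.card α ≤ n) : ¬ IsMulCommutative S := by
  intro hS
  obtain ⟨e⟩ : Nonempty (α ↪ Fin n) := Function.Embedding.nonempty_of_card_le (by simpa using hn)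
  let g : triangularPerms p →* alternatingGroup (Fin n) :=
    ((Perm.viaEmbeddingHom e).comp (f.comp (triangularPerms p).subtype)).codRestrict _ fun σ => by
      classical
      show Perm.sign (Perm.viaEmbeddingHom e (f σ)) = 1
      rw [Perm.viaEmbeddingHom_apply, Perm.viaEmbedding, Perm.sign_extendDomain]
      exact hsign σ σ.2
  obtain ⟨σ, hσ, τ, hτ, hne⟩ := triangularPerms_not_comm p
  apply hne
  have := commute_of_sylow_comm S hS g.range ((isPGroup_triangularPerms p).of_surjective _
    g.rangeRestrict_surjective) ⟨⟨σ, hσ⟩, rfl⟩ ⟨⟨τ, hτ⟩, rfl⟩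
  have h2 := congrArg Subtype.val this
  simp only [g, Subgroup.coe_mul, MonoidHom.codRestrict_apply, MonoidHom.comp_apply,
    Subgroup.coe_subtype, ← map_mul] at h2
  exact hf (Perm.viaEmbeddingHom_injective e h2)

/-- The translations in the second coordinate of `Fin m × ZMod p`, as permutations. -/
def fibrewiseTranslations (m p : ℕ) :
    Multiplicative (Fin m → ZMod p) →* Perm (Fin m × ZMod p) where
  toFun v := Equiv.prodShear (Equiv.refl _) fun k => Equiv.addRight (v.toAdd k)
  map_one' := by ext ⟨k, j⟩ <;> simp
  map_mul' v w := by ext ⟨k, j⟩ <;> simp [add_comm, add_left_comm]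

/-- The Sylow criterion for `A_n`. -/
theorem altSylow_commutative_iff (n p : ℕ) (hn : 6 ≤ n) [hp : Fact p.Prime]
    (S : Sylow p (alternatingGroup (Fin n))) : IsMulCommutative S ↔ n < p ^ 2 := by
  classical
  constructor
  · intro hS
    by_contra hlt
    push Not at hlt
    rcases hp.out.eq_two_or_odd' with rfl | hodd
    · refine not_comm_of_emb S (evenEmb _) (evenEmb_injective _) (fun σ _ => sign_evenEmb σ) ?_ hS
      simpa using hn
    · refine not_comm_of_emb S (MonoidHom.id _) (fun _ _ h => h) (fun σ hσ => ?_) ?_ hS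
      · obtain ⟨k, hk⟩ := isPGroup_triangularPerms p ⟨σ, hσ⟩
        have h1 : Perm.sign σ ^ p ^ k = 1 := by
          rw [← map_pow]; exact (congrArg (fun x => Perm.sign (Subtype.val x)) hk).trans (map_one _)
        rcases Int.units_eq_one_or (Perm.sign σ) with h | h
        · exact h
        · rw [h, (hodd.pow : Odd (p ^ k)).neg_one_pow] at h1
          exact absurd h1 (by decide)
      · simpa [sq] using hlt
  · intro hlt
    have hp2 : p ≠ 2 := by rintro rfl; omega
    have hodd : Odd p := hp.out.odd_of_ne_two hp2
    set m := n / p with hm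
    have hmp : m * p ≤ n := Nat.div_mul_le_self n p
    obtain ⟨e⟩ : Nonempty (Fin m × ZMod p ↪ Fin n) :=
      Function.Embedding.nonempty_of_card_le (by simpa using hmp)
    let f : Multiplicative (Fin m → ZMod p) →* alternatingGroup (Fin n) :=
      ((Perm.viaEmbeddingHom e).comp (fibrewiseTranslations m p)).codRestrict _ fun v => by
        show Perm.sign (Perm.viaEmbeddingHom e (fibrewiseTranslations m p v)) = 1
        rw [Perm.viaEmbeddingHom_apply, Perm.viaEmbedding, Perm.sign_extendDomain]
        have h0 : v ^ p = 1 := by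
          apply Multiplicative.toAdd.injective
          ext k
          simp
        have h1 : Perm.sign (fibrewiseTranslations m p v) ^ p = 1 := by
          rw [← map_pow, ← map_pow, h0, map_one, map_one]
        rcases Int.units_eq_one_or (Perm.sign (fibrewiseTranslations m p v)) with h | h
        · exact h
        · rw [h, hodd.neg_one_pow] at h1
          exact absurd h1 (by decide)
    have hf : Function.Injective f := by
      intro v w h
      have h2 := Perm.viaEmbeddingHom_injective e (congrArg Subtype.val h :)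
      apply Multiplicative.toAdd.injective
      ext k
      have := congrArg (fun g : Perm (Fin m × ZMod p) => (g (k, 0)).2) h2
      simpa [fibrewiseTranslations] using this
    haveI : Nontrivial (Fin n) := Fin.nontrivial_iff_two_le.mpr (by omega)
    have hcard : Nat.card f.range = p ^ (Nat.card (alternatingGroup (Fin n))).factorization p := by
      have h1 : (Nat.card (alternatingGroup (Fin n))).factorization p = m := by
        rw [Nat.card_eq_fintype_card]
        have h2 : 2 * Fintype.card (alternatingGroup (Fin n)) = n.factorial := by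
          rw [two_mul_card_alternatingGroup, Fintype.card_perm, Fintype.card_fin]
        have h3 := congrArg (padicValNat p) h2
        have hlog : Nat.log p n < 2 := Nat.log_lt_of_lt_pow (by omega) hlt
        rw [padicValNat.mul (by norm_num) Fintype.card_ne_zero, padicValNat_factorial hlog,
          padicValNat.eq_zero_of_not_dvd (fun h => hp2 ((Nat.prime_dvd_prime_iff_eq hp.out Nat.prime_two).mp h)),
          zero_add] at h3
        rw [Nat.factorization_def _ hp.out, h3]
        simp [hm]
      rw [h1, Nat.card_congr (MonoidHom.ofInjective hf).toEquiv.symm]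
      simp [Nat.card_eq_fintype_card]
    let e2 : S ≃* f.range :=
      Sylow.equiv S (Sylow.ofCard f.range hcard)
    refine ⟨⟨fun x y => e2.injective ?_⟩⟩
    rw [map_mul, map_mul]
    obtain ⟨v, hv⟩ := (e2 x).2
    obtain ⟨w, hw⟩ := (e2 y).2
    apply Subtype.ext
    show (e2 x : alternatingGroup (Fin n)) * (e2 y : _) = (e2 y : _) * (e2 x : _)
    rw [← hv, ← hw, ← map_mul, ← map_mul, mul_comm]

end Cfsg.Agent.H94
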