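import Cfsg.Agent.H94.CentricExt

/-! Detection of automorphisms of any subgroup on a centric subgroup of it. -/

set_option autoImplicit false

namespace Cfsg.Agent.H94

open Cfsg Cfsg.FusionSystem Cfsg.Agent.H96

variable {Ω : Type*} [Group Ω] {S : Subgroup Ω} {F E : FusionSystem S} {p : ℕ}

/-- If a saturated subsystem over `S` contains the restriction of an automorphism of a
subgroup `X` to a centric subgroup, it contains the automorphism. -/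
theorem autGroup_mem_of_res_centric_le [Finite S] [Fact p.Prime] (hS : IsPGroup p S)
    (hF : F.IsSaturated p) (hE : E.IsSaturated p) (hle : E ≤ F) {X : Subgroup Ω} (hX : X ≤ S) {α : MulAut X}
    (hα : α ∈ F.autGroup X) {R : Subgroup Ω} (hR : F.IsCentric R) (hRX : R ≤ X) {φ : R →* Ω}
    (hφ : φ ∈ E.Hom R)
    (h : ∀ (x : R) (hx : (x : Ω) ∈ X), φ x = ((α ⟨x, hx⟩ : X) : Ω)) : α ∈ E.autGroup X := by
  have := finite_of_le hX
  obtain ⟨m, hm⟩ : ∃ m, Nat.card X - Nat.card R = m := ⟨_, rfl⟩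
  induction m using Nat.strong_induction_on generalizing R with
  | _ m ih =>
  rcases eq_or_lt_of_le hRX with rfl | hlt
  · exact (mem_autGroup E hX).2 (mem_congr E hφ fun x => (h x x.2).symm)
  obtain ⟨β, hβ, hβi⟩ : ∃ β : X →* Ω, β ∈ F.Hom X ∧ ∀ x : X, β x = ((α.symm x : X) : Ω) :=
    ⟨_, (mem_autGroup F hX).1 (Subgroup.inv_mem _ hα), fun _ => rfl⟩
  have hQc : F.IsCentric φ.range := centric_of_isConj hR ⟨φ, hle R hφ, rfl⟩
  have hQcE : E.IsCentric φ.range := ⟨hQc.1, fun Q' hQ' => by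
    obtain ⟨f, hf, hfr⟩ := hQ'
    exact hQc.2 Q' ⟨f, hle _ hf, hfr⟩⟩
  obtain ⟨ψ, hψ, hψe⟩ := (fullyCentralized_receptive hS hE (centric_isFullyCentralized hQcE)).2 R φ hφ rfl
  have hN : normalizerIn X R ≤ extender S R φ := by
    rintro g ⟨hgS, hgN⟩
    refine mem_extender.2 ⟨hX hgS, hgN, (α ⟨g, hgS⟩ : X), hX (α _).2, fun x hx => ?_⟩
    rw [h _ (hRX hx), h _ (hRX x.2),
      show (⟨g * (x : Ω) * g⁻¹, hRX hx⟩ : X) = ⟨g, hgS⟩ * ⟨x, hRX x.2⟩ * ⟨g, hgS⟩⁻¹ from rfl,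
      map_mul, map_mul, map_inv]
    rfl
  have hψS := (E.le_of_mem hψ).2
  have hψX : ∀ x : normalizerIn X R, res ψ hN x ∈ X := by
    intro x
    have hw : ((α ⟨x, x.2.1⟩ : X) : Ω)⁻¹ * res ψ hN x ∈ φ.range := by
      refine hQc.2 _ (isConj_refl F hQc.1) ⟨S.mul_mem (S.inv_mem (hX (α _).2)) (hψS _),
        Subgroup.mem_centralizer_iff.2 ?_⟩
      rintro _ ⟨r, rfl⟩
      have hc : (x : Ω) * r * (x : Ω)⁻¹ ∈ R := (Subgroup.mem_normalizer_iff.1 x.2.2 r).1 r.2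
      have hrN : (r : Ω) ∈ normalizerIn X R := ⟨hRX r.2, Subgroup.le_normalizer r.2⟩
      have e1 : res ψ hN (x * ⟨r, hrN⟩ * x⁻¹) = φ ⟨_, hc⟩ := hψe _ hc _
      have e2 : res ψ hN ⟨r, hrN⟩ = φ r := hψe _ r.2 _
      have e3 : φ ⟨_, hc⟩ = ((α ⟨x, x.2.1⟩ : X) : Ω) * φ r * ((α ⟨x, x.2.1⟩ : X) : Ω)⁻¹ := by
        rw [h _ (hRX hc), h r (hRX r.2),
          show (⟨(x : Ω) * r * (x : Ω)⁻¹, hRX hc⟩ : X) = ⟨x, x.2.1⟩ * ⟨r, hRX r.2⟩ * ⟨x, x.2.1⟩⁻¹ from rfl,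
          map_mul, map_mul, map_inv]
        rfl
      rw [map_mul, map_mul, map_inv, e2, e3] at e1
      generalize res ψ hN x = u at e1 ⊢
      generalize ((α ⟨x, x.2.1⟩ : X) : Ω) = a at e1 ⊢
      calc φ r * (a⁻¹ * u) = a⁻¹ * (a * φ r * a⁻¹) * u := by group
        _ = a⁻¹ * (u * φ r * u⁻¹) * u := by rw [e1]
        _ = a⁻¹ * u * φ r := by group
    have hsub : φ.range ≤ X := by
      rintro _ ⟨r, rfl⟩
      rw [h r (hRX r.2)]
      exact (α _).2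
    have := X.mul_mem (α ⟨x, x.2.1⟩).2 (hsub hw)
    rwa [mul_inv_cancel_left] at this
  obtain ⟨d, hd, hde⟩ := H96.exists_comp F (res_mem F (hle _ hψ) hN) hβ hψX
  have hRN : R ≤ normalizerIn X R := fun x hx => ⟨hRX hx, Subgroup.le_normalizer hx⟩
  have hdfix : ∀ x : normalizerIn X R, (x : Ω) ∈ R → d x = x := fun x hx => by
    rw [hde, hβi]
    have : (⟨res ψ hN x, hψX _⟩ : X) = α ⟨x, x.2.1⟩ :=
      Subtype.ext ((hψe x hx (hN x.2)).trans (h ⟨x, hx⟩ x.2.1))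
    rw [this, MulEquiv.symm_apply_apply]
  have hdN : ∀ y : normalizerIn X R, d y ∈ normalizerIn X R := fun y => by
    have hw : (y : Ω)⁻¹ * d y ∈ R := by
      refine hR.2 R (isConj_refl F hR.1) ⟨S.mul_mem (S.inv_mem (hX y.2.1)) ((F.le_of_mem hd).2 y),
        Subgroup.mem_centralizer_iff.2 fun r hr => ?_⟩
      have hc : ((y * ⟨r, hRN hr⟩ * y⁻¹ : normalizerIn X R) : Ω) ∈ R :=
        (Subgroup.mem_normalizer_iff.1 y.2.2 r).1 hr
      have h1 := hdfix _ hc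
      rw [map_mul, map_mul, map_inv, hdfix ⟨r, hRN hr⟩ hr] at h1
      have h' : d y * r * (d y)⁻¹ = (y : Ω) * r * (y : Ω)⁻¹ := h1
      show r * ((y : Ω)⁻¹ * d y) = (y : Ω)⁻¹ * d y * r
      calc r * ((y : Ω)⁻¹ * d y) = (y : Ω)⁻¹ * ((y : Ω) * r * (y : Ω)⁻¹) * d y := by group
        _ = (y : Ω)⁻¹ * (d y * r * (d y)⁻¹) * d y := by rw [h']
        _ = (y : Ω)⁻¹ * d y * r := by group
    have := mul_mem y.2 (hRN hw)
    rwa [mul_inv_cancel_left] at this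
  obtain ⟨δ, hδ, hδe⟩ := exists_autGroup_of_mem F hd hdN
  obtain ⟨z, hz, -, hze⟩ := exists_conj_of_fix_centric hS hF hR hRN (inf_le_left.trans hX) inf_le_right hδ
    (fun x hx => Subtype.ext ((hδe x).trans (hdfix x hx)))
  obtain ⟨φ', hφ', hφ'e⟩ := H96.exists_comp E (res_mem E hψ hN)
    (E.conj_mem le_rfl (S.inv_mem (hX (α ⟨z, hRX hz⟩).2))) (fun x => hψS _)
  have hlt2 : Nat.card R < Nat.card (normalizerIn X R) := by
    have := finite_of_le (S := X) (P := normalizerIn X R) inf_le_left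
    exact lt_of_le_of_ne (Subgroup.card_le_of_le hRN)
      fun hh => (lt_normalizerIn (hS.to_le hX) hlt).ne (Subgroup.eq_of_le_of_card_ge hRN hh.ge)
  have hle2 : Nat.card (normalizerIn X R) ≤ Nat.card X := Subgroup.card_le_of_le inf_le_left
  refine ih (Nat.card X - Nat.card (normalizerIn X R)) (by omega)
    (centric_of_le hR hRN (inf_le_left.trans hX)) inf_le_left hφ' (fun y hy => ?_) rfl
  have h2 : d y = z * (y : Ω) * z⁻¹ := (hδe y).symm.trans (hze y)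
  rw [hde, hβi] at h2
  have h3 : (⟨res ψ hN y, hψX _⟩ : X) = α (⟨z, hRX hz⟩ * ⟨y, hy⟩ * ⟨z, hRX hz⟩⁻¹) := by
    rw [← MulEquiv.symm_apply_eq]
    exact Subtype.ext h2
  rw [hφ'e]
  show _ * res ψ hN y * _ = _
  have h4 := congrArg Subtype.val h3
  simp only [map_mul, map_inv, Subgroup.coe_mul, Subgroup.coe_inv] at h4
  rw [h4]
  group

end Cfsg.Agent.H94
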