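import Cfsg.Agent.H94.ConstrainedSetup

/-! Normal subsystems of the fusion system of a strictly `p`-constrained group come from normal subgroups. -/

set_option autoImplicit false

namespace Cfsg.Agent.H94

open Cfsg Cfsg.FusionSystem

variable {G : Type*} [Group G]

/-- A map of a saturated system prescribed on a fully normalized invariant subgroup extends to an automorphism. -/
theorem exists_aut_ext_of_res [Finite G] {T R : Subgroup G} {D : FusionSystem T}
    (hR : D.IsReceptive R) (hRn : ∀ t ∈ T, t ∈ Subgroup.normalizer (R : Set G)) (hRT : R ≤ T)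
    {α : MulAut T} {φ : R →* G} (hφ : φ ∈ D.Hom R) (hφR : ∀ x, φ x ∈ R)
    (he : ∀ x : R, φ x = ((α ⟨x, hRT x.2⟩ : T) : G)) :
    ∃ ψ ∈ D.autGroup T, ∀ x : R, ((ψ ⟨x, hRT x.2⟩ : T) : G) = φ x := by
  obtain ⟨ψ, hψ, hψe⟩ := hR.2 R φ hφ (H96.range_eq_of_forall_mem D hφ hφR)
  have hTE : T ≤ extender T R φ := fun g hg => H96.mem_extender.2 ⟨hg, hRn g hg, (α ⟨g, hg⟩ : T),
    (α _).2, fun x hx => by
      rw [he, he, show (⟨g * (x : G) * g⁻¹, hRT hx⟩ : T) = ⟨g, hg⟩ * ⟨x, hRT x.2⟩ * ⟨g, hg⟩⁻¹ from rfl,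
        map_mul, map_mul, map_inv]
      rfl⟩
  obtain ⟨ψ', hψ', hψ'e⟩ := H96.exists_autGroup_of_mem D (H96.res_mem D hψ hTE)
    (D.le_of_mem (H96.res_mem D hψ hTE)).2
  exact ⟨ψ', hψ', fun x => (hψ'e _).trans (hψe x x.2 _)⟩

variable {p : ℕ} [Fact p.Prime]

/-- A coprime automorphism agreeing on a centric normal subgroup with a member of a normal subgroup of the
automizer is a member of it. -/
theorem aut_mem_of_res_coprime [Finite G] {T R : Subgroup G} (hT : IsPGroup p T) (hRT : R ≤ T)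
    (hRn : ∀ t ∈ T, t ∈ Subgroup.normalizer (R : Set G))
    (hc : ∀ t ∈ T, t ∈ Subgroup.centralizer (R : Set G) → t ∈ R)
    {A K : Subgroup (MulAut T)} (hn : ∀ a ∈ A, ∀ k ∈ K, a * k * a⁻¹ ∈ K) {α ψ : MulAut T}
    (hα : α ∈ A) (hord : (orderOf α).Coprime p) (hψA : ψ ∈ A) (hψ : ψ ∈ K)
    (he : ∀ x : R, α ⟨x, hRT x.2⟩ = ψ ⟨x, hRT x.2⟩) : α ∈ K := by
  set δ := ψ⁻¹ * α
  have hfix : ∀ x : T, (x : G) ∈ R → δ x = x := fun x hx => by
    show ψ⁻¹ (α x) = x
    rw [show x = ⟨((⟨(x : G), hx⟩ : R) : G), hRT hx⟩ from rfl, he]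
    exact ψ.symm_apply_apply _
  have hw : ∀ y : T, ((y⁻¹ * δ y : T) : G) ∈ R := fun y => by
    refine hc _ (y⁻¹ * δ y).2 (Subgroup.mem_centralizer_iff.2 fun r hr => ?_)
    have hcj : ((y * ⟨r, hRT hr⟩ * y⁻¹ : T) : G) ∈ R :=
      (Subgroup.mem_normalizer_iff.1 (hRn y y.2) r).1 hr
    have h := hfix _ hcj
    rw [map_mul, map_mul, map_inv, hfix ⟨r, hRT hr⟩ hr] at h
    have h' : ((δ y : T) : G) * r * ((δ y : T) : G)⁻¹ = (y : G) * r * (y : G)⁻¹ :=
      congrArg Subtype.val h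
    show r * ((y : G)⁻¹ * (δ y : T)) = (y : G)⁻¹ * (δ y : T) * r
    calc r * ((y : G)⁻¹ * (δ y : T)) = (y : G)⁻¹ * ((y : G) * r * (y : G)⁻¹) * (δ y : T) := by group
      _ = (y : G)⁻¹ * ((δ y : T) * r * ((δ y : T) : G)⁻¹) * (δ y : T) := by rw [h']
      _ = (y : G)⁻¹ * (δ y : T) * r := by group
  obtain ⟨k, hk⟩ := IsPGroup.iff_card.1 hT
  have hpow : ∀ (n : ℕ) (y : T), (δ ^ n) y = y * (y⁻¹ * δ y) ^ n := by
    intro n
    induction n with
    | zero => simp
    | succ n ih =>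
      intro y
      rw [pow_succ', MulAut.mul_apply, ih, map_mul, map_pow, hfix _ (hw y), pow_succ']
      simp [mul_assoc]
  have hδk : δ ^ p ^ k = 1 := MulEquiv.ext fun y => by
    rw [hpow, ← hk, pow_card_eq_one', mul_one]; rfl
  haveI : ((K ⊓ A).subgroupOf A).Normal := ⟨fun x hx a => Subgroup.mem_subgroupOf.2
    ⟨hn a a.2 x (Subgroup.mem_subgroupOf.1 hx).1, (a * x * a⁻¹).2⟩⟩
  have hδA : δ ∈ A := mul_mem (Subgroup.inv_mem _ hψA) hα
  set π := QuotientGroup.mk' ((K ⊓ A).subgroupOf A)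
  have heq : π ⟨α, hα⟩ = π ⟨δ, hδA⟩ := by
    rw [show (⟨α, hα⟩ : A) = ⟨ψ, hψA⟩ * ⟨δ, hδA⟩ from Subtype.ext (by simp [δ]), map_mul,
      show π ⟨ψ, hψA⟩ = 1 from (QuotientGroup.eq_one_iff _).2 (Subgroup.mem_subgroupOf.2 ⟨hψ, hψA⟩),
      one_mul]
  have h1 : π ⟨α, hα⟩ ^ orderOf α = 1 := by
    rw [← map_pow, show (⟨α, hα⟩ : A) ^ orderOf α = 1 from Subtype.ext (pow_orderOf_eq_one α),
      map_one]
  have h2 : π ⟨α, hα⟩ ^ p ^ k = 1 := by
    rw [heq, ← map_pow, show (⟨δ, hδA⟩ : A) ^ p ^ k = 1 from Subtype.ext hδk, map_one]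
  have := eq_one_of_pow_coprime h1 ((Nat.Prime.coprime_iff_not_dvd Fact.out).1 hord.symm) h2
  exact (Subgroup.mem_subgroupOf.1 ((QuotientGroup.eq_one_iff _).1 this)).1

variable [Finite G]

/-- The normal subsystem equals the system of the normal subgroup. -/
theorem normal_subsystem_eq (S : Sylow p G) {T : Subgroup G} {E : FusionSystem T}
    (hE : E.IsNormalIn (groupFusionSystem (S : Subgroup G)) p)
    {M H W : Subgroup G} (hHn : H.Normal) (hHM : H ≤ M) (hTeq : T = (S : Subgroup G) ⊓ H)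
    (hM : ∀ g, g ∈ M ↔ ((∃ b ∈ E.autGroup (T ⊓ Cfsg.pCore p G), ∀ x : ↥(T ⊓ Cfsg.pCore p G),
        ((b x : ↥(T ⊓ Cfsg.pCore p G)) : G) = g * (x : G) * g⁻¹) ∧
      ∀ q ∈ Cfsg.pCore p G, q⁻¹ * (g * q * g⁻¹) ∈ T ⊓ Cfsg.pCore p G))
    (hW : ∀ g, g ∈ W ↔ g ∈ M ∧ g ∈ Subgroup.centralizer ((T ⊓ Cfsg.pCore p G : Subgroup G) : Set G))
    (hdec : ∀ m ∈ M, ∃ h ∈ H, ∃ w ∈ W, m = h * w)
    (hc : ∀ t ∈ T, t ∈ Subgroup.centralizer ((T ⊓ Cfsg.pCore p G : Subgroup G) : Set G) →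
      t ∈ Cfsg.pCore p G)
    (hTH : T ≤ H) (P : Subgroup G) : E.Hom P = (fusionSystemOfSubgroup H T hTH).Hom P := by
  have hDn : (fusionSystemOfSubgroup H T hTH).IsNormalIn (groupFusionSystem (S : Subgroup G)) p := by
    subst hTeq; exact isNormalIn_normalSubgroup S H
  set F := groupFusionSystem (S : Subgroup G)
  set D := fusionSystemOfSubgroup H T hTH
  obtain ⟨⟨hEs, hFs, hEI⟩, hext⟩ := hE
  have hT : F.StronglyClosed T := hEI.2.1
  have hTS : T ≤ (S : Subgroup G) := hT.1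
  have hTp : IsPGroup p T := S.isPGroup'.to_le hTS
  have hEsi := stronglyInvariant_of_invariant hEI
  obtain ⟨⟨hDs, -, hDI⟩, -⟩ := hDn
  have hDsi := stronglyInvariant_of_invariant hDI
  set Q := Cfsg.pCore p G
  haveI hQn : Q.Normal := H19.pCore_normal p G
  have hQS : Q ≤ (S : Subgroup G) := H19.pCore_le_sylow S
  set R := T ⊓ Q
  have hRT : R ≤ T := inf_le_left
  haveI hRn : R.Normal := ⟨fun x hx g => ⟨conj_mem_of_stronglyClosed_group hT hx.1
    (hQS (hQn.conj_mem x hx.2 g)), hQn.conj_mem x hx.2 g⟩⟩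
  have hnorm : ∀ t ∈ T, t ∈ Subgroup.normalizer (R : Set G) := fun t _ => by
    rw [Subgroup.normalizer_eq_top_iff.2 hRn]; trivial
  have hc' : ∀ t ∈ T, t ∈ Subgroup.centralizer (R : Set G) → t ∈ R := fun t ht h => ⟨ht, hc t ht h⟩
  have hrec : ∀ X : FusionSystem T, X.IsSaturated p → X.IsSubsystemOf F → X.IsReceptive R :=
    fun X hX hXF => (fullyNormalized_spec hTp hX ⟨hRT, fun R' hR' => by
      obtain ⟨φ, hφ, rfl⟩ := hR'
      have hmem : ∀ x, φ x ∈ R := fun x => by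
        obtain ⟨-, -, g, hg⟩ := hXF R hφ
        exact hg x ▸ hRn.conj_mem x x.2 g
      have := H96.finite_of_le (S := T) hRT
      rw [H96.range_eq_of_forall_mem X hφ hmem]⟩).2
  have hleF : ∀ X : FusionSystem T, X.IsSubsystemOf F → X.autGroup T ≤ F.autGroup T := fun X hXF a ha =>
    (H96.mem_autGroup F hTS).2 (hXF T ((H96.mem_autGroup X le_rfl).1 ha))
  -- reduction to automorphisms of order prime to `p`
  have reduce : ∀ X Y : FusionSystem T, X.IsSaturated p →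
      (∀ a ∈ X.autGroup T, (orderOf a).Coprime p → a ∈ Y.autGroup T) → X.autGroup T ≤ Y.autGroup T := by
    intro X Y hX h a ha
    obtain ⟨hA, -⟩ := fullyNormalized_spec hTp hX (H93.isFullyNormalized_top X)
    obtain ⟨k, hk, b, hb, rfl⟩ := exists_pResidual_mul_of_fullyAutomized hA ha
    refine mul_mem ?_ (H96.autInducedBy_le_autGroup Y le_rfl hb)
    have : (pResidual p (X.autGroup T)).map (X.autGroup T).subtype ≤ Y.autGroup T := by
      rw [pResidual, MonoidHom.map_closure, Subgroup.closure_le]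
      rintro _ ⟨c, hc, rfl⟩
      exact h c c.2 (by rw [Subgroup.orderOf_coe]; exact hc)
    exact this hk
  have hDE : D.autGroup T ≤ E.autGroup T := by
    refine reduce D E hDs fun α hα hord => ?_
    obtain ⟨-, -, h, hh, hhe⟩ := (H96.mem_autGroup D le_rfl).1 hα
    obtain ⟨b, hb, hbe⟩ := ((hM h).1 (hHM hh)).1
    obtain ⟨ψ, hψ, hψe⟩ := exists_aut_ext_of_res (hrec E hEs hEI.1) hnorm hRT
      (φ := R.subtype.comp b.toMonoidHom) ((H96.mem_autGroup E hRT).1 hb) (fun x => (b x).2)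
      (α := α) (fun x => (hbe x).trans (hhe ⟨x, hRT x.2⟩).symm)
    exact aut_mem_of_res_coprime hTp hRT hnorm hc'
      (fun a ha k hk => autGroup_conj_mem hEsi hTS le_rfl ha hk) (hleF D hDI.1 hα) hord
      (hleF E hEI.1 hψ) hψ (fun x => Subtype.ext (((hhe ⟨x, hRT x.2⟩).trans (hbe x).symm).trans (hψe x).symm))
  have hED : E.autGroup T ≤ D.autGroup T := by
    refine reduce E D hEs fun α hα hord => ?_
    obtain ⟨β, hβ, hβe, hβc⟩ := hext α hα
    set A := centralizerIn (S : Subgroup G) T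
    have hUS : T ⊔ A ≤ (S : Subgroup G) := sup_le hTS inf_le_left
    rw [show F.autGroup (T ⊔ A) = autInducedBy ⊤ (T ⊔ A) from H93.autGroup_groupFusion S hUS] at hβ
    obtain ⟨g, -, hg⟩ := H96.mem_autInducedBy.1 hβ
    have hpow : ∀ n : ℕ, (∀ x : T, g ^ n * (x : G) * (g ^ n)⁻¹ = (((α ^ n) x : T) : G)) ∧
        ∀ c ∈ A, c⁻¹ * (g ^ n * c * (g ^ n)⁻¹) ∈ T ⊓ Subgroup.centralizer (T : Set G) := by
      have h1 : ∀ x : T, g * (x : G) * g⁻¹ = ((α x : T) : G) := fun x =>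
        (hg _).symm.trans (hβe x)
      have h2 : ∀ c ∈ A, c⁻¹ * (g * c * g⁻¹) ∈ T ⊓ Subgroup.centralizer (T : Set G) := fun c hc => by
        have := hβc ⟨c, (le_sup_right : A ≤ T ⊔ A) hc⟩ hc
        rwa [hg] at this
      intro n
      induction n with
      | zero => simp
      | succ n ih =>
        refine ⟨fun x => ?_, fun c hc => ?_⟩
        · rw [pow_succ' α, MulAut.mul_apply, ← h1, ← ih.1 x, pow_succ']
          group
        · set z := c⁻¹ * (g ^ n * c * (g ^ n)⁻¹) with hzdef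
          have hz := ih.2 c hc
          have hαz : g * z * g⁻¹ ∈ T ⊓ Subgroup.centralizer (T : Set G) := by
            refine ⟨(h1 ⟨z, hz.1⟩) ▸ (α _).2, Subgroup.mem_centralizer_iff.2 fun y hy => ?_⟩
            obtain ⟨x, hx⟩ := α.surjective (⟨y, hy⟩ : T)
            have hy' : y = g * (x : G) * g⁻¹ := by rw [h1, hx]
            have h3 := Subgroup.mem_centralizer_iff.1 hz.2 x x.2
            calc y * (g * z * g⁻¹) = g * ((x : G) * z) * g⁻¹ := by rw [hy']; group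
              _ = g * (z * (x : G)) * g⁻¹ := by rw [h3]
              _ = g * z * g⁻¹ * y := by rw [hy']; group
          have := Subgroup.mul_mem _ (h2 c hc) hαz
          convert this using 1
          rw [pow_succ', hzdef]
          group
    obtain ⟨a, r, hpr, hr⟩ := Nat.exists_eq_pow_mul_and_not_dvd (orderOf_pos g).ne' p
      (Fact.out : p.Prime).ne_one
    have hcop : (p ^ a).Coprime r :=
      Nat.Coprime.pow_left _ ((Nat.Prime.coprime_iff_not_dvd Fact.out).2 hpr)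
    obtain ⟨m, hm0, hm1⟩ := Nat.chineseRemainder hcop 0 1
    have hαr : orderOf α ∣ r := by
      refine Nat.Coprime.dvd_of_dvd_mul_left (hord.pow_right a) ?_
      rw [← hr]
      refine orderOf_dvd_of_pow_eq_one (MulEquiv.ext fun x => Subtype.ext ?_)
      rw [← (hpow (orderOf g)).1 x, pow_orderOf_eq_one]
      simp
    set g' := g ^ m
    have hg'r : g' ^ r = 1 := by
      rw [← pow_mul]
      refine orderOf_dvd_iff_pow_eq_one.1 ?_
      rw [hr]
      exact Nat.mul_dvd_mul_right (Nat.modEq_zero_iff_dvd.1 hm0) r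
    have hαm : α ^ m = α := by
      conv_rhs => rw [← pow_one α]
      exact pow_eq_pow_iff_modEq.2 (hm1.of_dvd hαr)
    have hg'T : ∀ x : T, g' * (x : G) * g'⁻¹ = ((α x : T) : G) := fun x => by
      rw [(hpow m).1 x, hαm]
    have hSN := le_normalizer_of_stronglyClosed hT
    have hAfix : ∀ c ∈ A, ∀ t ∈ T, c⁻¹ * t * c = t := fun c hc t ht => by
      rw [mul_assoc, Subgroup.mem_centralizer_iff.1 hc.2 t ht, inv_mul_cancel_left]
    obtain ⟨hA, -⟩ := fullyNormalized_spec hTp hEs (H93.isFullyNormalized_top E)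
    have hd : ∀ q ∈ Q, q⁻¹ * (g' * q * g'⁻¹) ∈ T ⊔ A := by
      intro q hq
      set d := q⁻¹ * (g' * q * g'⁻¹) with hddef
      have hdS : d ∈ (S : Subgroup G) := hQS (Q.mul_mem (Q.inv_mem hq) (hQn.conj_mem q hq g'))
      obtain ⟨cq, hcq, hcqe⟩ := exists_autInducedBy (hQS (Q.inv_mem hq)) (hSN (hQS (Q.inv_mem hq)))
      have hcqF := H96.autInducedBy_le_autGroup F hTS hcq
      have hb : cq * α * cq⁻¹ * α⁻¹ ∈ E.autGroup T :=
        mul_mem (autGroup_conj_mem hEsi hTS le_rfl hcqF hα) (Subgroup.inv_mem _ hα)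
      have hbe : ∀ x : T, (((cq * α * cq⁻¹ * α⁻¹) x : T) : G) = d * (x : G) * d⁻¹ := by
        intro x
        show ((cq (α (cq⁻¹ (α⁻¹ x))) : T) : G) = _
        have e1 : ((α⁻¹ x : T) : G) = g'⁻¹ * (x : G) * g' := by
          have := hg'T (α⁻¹ x)
          rw [show α (α⁻¹ x) = x from α.apply_symm_apply x] at this
          rw [← this]; group
        have e2 : ∀ y : T, ((cq⁻¹ y : T) : G) = q * (y : G) * q⁻¹ := fun y => by
          have := hcqe (cq⁻¹ y)
          rw [show cq (cq⁻¹ y) = y from cq.apply_symm_apply y] at this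
          rw [this]; group
        rw [hcqe, ← hg'T, e2, e1, hddef]
        group
      obtain ⟨R₀, hR₀⟩ := hA.2
      have hK : IsPGroup p ((autInducedBy (S : Subgroup G) T).subgroupOf (E.autGroup T)) :=
        (isPGroup_autInducedBy S.isPGroup').comap_subtype
      have hle : (R₀ : Subgroup (E.autGroup T)) ≤ (autInducedBy (S : Subgroup G) T).subgroupOf (E.autGroup T) :=
        fun c hc => by
          obtain ⟨t, ht, hte⟩ := H96.mem_autInducedBy.1 (Subgroup.mem_subgroupOf.1 (hR₀.le hc))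
          exact Subgroup.mem_subgroupOf.2 (H96.mem_autInducedBy.2 ⟨t, hTS ht, hte⟩)
      have hbR := hR₀.le ((R₀.is_maximal' hK hle).le (show (⟨_, hb⟩ : E.autGroup T) ∈ _ from
        Subgroup.mem_subgroupOf.2 (H96.mem_autInducedBy.2 ⟨d, hdS, hbe⟩)))
      obtain ⟨t, ht, hte⟩ := H96.mem_autInducedBy.1 (Subgroup.mem_subgroupOf.1 hbR)
      have hcA : t⁻¹ * d ∈ A := by
        refine ⟨(S : Subgroup G).mul_mem ((S : Subgroup G).inv_mem (hTS ht)) hdS,
          Subgroup.mem_centralizer_iff.2 fun x hx => ?_⟩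
        have h : d * x * d⁻¹ = t * x * t⁻¹ := (hbe ⟨x, hx⟩).symm.trans (hte ⟨x, hx⟩)
        calc x * (t⁻¹ * d) = t⁻¹ * (t * x * t⁻¹) * d := by group
          _ = t⁻¹ * (d * x * d⁻¹) * d := by rw [h]
          _ = t⁻¹ * d * x := by group
      have := Subgroup.mul_mem_sup ht hcA
      rwa [mul_inv_cancel_left] at this
    have hd2 : ∀ y ∈ Q, y ∈ T ⊔ A → y⁻¹ * (g' * y * g'⁻¹) ∈ R := by
      intro y hy hyU
      refine ⟨?_, Q.mul_mem (Q.inv_mem hy) (hQn.conj_mem y hy g')⟩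
      obtain ⟨t, ht, c, hc', rfl⟩ := Set.mem_mul.1 ((Subgroup.coe_mul_of_right_le_normalizer_left T A
        (inf_le_right.trans (Subgroup.centralizer_le_normalizer _))).le hyU)
      have hm := (hpow m).2 c hc'
      have htt : t⁻¹ * (g' * t * g'⁻¹) ∈ T :=
        T.mul_mem (T.inv_mem ht) (hg'T ⟨t, ht⟩ ▸ (α _).2)
      have e : (t * c)⁻¹ * (g' * (t * c) * g'⁻¹) =
          c⁻¹ * (t⁻¹ * (g' * t * g'⁻¹)) * c * (c⁻¹ * (g' * c * g'⁻¹)) := by group
      rw [e, hAfix c hc' _ htt]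
      exact T.mul_mem htt hm.1
    -- coprime action on `Q / R`
    have hg'M : g' ∈ M := by
      refine (hM g').2 ⟨?_, fun q hq => ?_⟩
      · obtain ⟨b, hb, hbe⟩ := H96.exists_autGroup_of_mem E
          (H96.res_mem E ((H96.mem_autGroup E le_rfl).1 hα) hRT) (fun x => by
            show ((α ⟨x, hRT x.2⟩ : T) : G) ∈ R
            rw [← hg'T]; exact hRn.conj_mem x x.2 g')
        exact ⟨b, hb, fun x => (hbe x).trans (hg'T ⟨x, hRT x.2⟩).symm⟩
      · set d := q⁻¹ * (g' * q * g'⁻¹) with hddef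
        have hdQ : d ∈ Q := Q.mul_mem (Q.inv_mem hq) (hQn.conj_mem q hq g')
        set π := QuotientGroup.mk' R
        have hdfix : π g' * π d * (π g')⁻¹ = π d := by
          rw [← map_inv, ← map_mul, ← map_mul]
          refine (QuotientGroup.eq (s := R)).2 ?_
          have := R.inv_mem (hd2 d hdQ (hd q hq))
          convert this using 1
          group
        have hqd : π g' * π q * (π g')⁻¹ = π q * π d := by
          rw [← map_inv, ← map_mul, ← map_mul, ← map_mul, hddef]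
          congr 1
          group
        have hn : ∀ n : ℕ, π g' ^ n * π q * (π g' ^ n)⁻¹ = π q * π d ^ n := by
          intro n
          induction n with
          | zero => simp
          | succ n ih =>
            have hf : π g' * π d ^ n * (π g')⁻¹ = π d ^ n := by
              rw [← conj_pow, hdfix]
            calc π g' ^ (n + 1) * π q * (π g' ^ (n + 1))⁻¹
                = π g' * (π g' ^ n * π q * (π g' ^ n)⁻¹) * (π g')⁻¹ := by rw [pow_succ']; group
              _ = (π g' * π q * (π g')⁻¹) * (π g' * π d ^ n * (π g')⁻¹) := by rw [ih]; group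
              _ = π q * π d * π d ^ n := by rw [hqd, hf]
              _ = π q * π d ^ (n + 1) := by rw [pow_succ', mul_assoc]
        have hdr : π d ^ r = 1 := by
          have h := hn r
          rw [← map_pow π g' r, hg'r, map_one, one_mul, inv_one, mul_one] at h
          exact left_eq_mul.1 h
        obtain ⟨k, hk⟩ := S.isPGroup' ⟨d, hQS hdQ⟩
        refine (QuotientGroup.eq_one_iff d).1 (eq_one_of_pow_coprime hdr hpr (k := k) ?_)
        show π d ^ p ^ k = 1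
        rw [← map_pow, show d ^ p ^ k = 1 from congrArg Subtype.val hk, map_one]
    obtain ⟨h, hh, w, hw, hhw⟩ := hdec g' hg'M
    have hwC := ((hW w).1 hw).2
    have hres : ∀ x : R, conjHom R h x = ((α ⟨x, hRT x.2⟩ : T) : G) := fun x => by
      rw [← hg'T, hhw]
      have := Subgroup.mem_centralizer_iff.1 hwC x x.2
      calc h * (x : G) * h⁻¹ = h * ((x : G) * w * w⁻¹) * h⁻¹ := by group
        _ = h * (w * (x : G) * w⁻¹) * h⁻¹ := by rw [this]
        _ = h * w * (x : G) * (h * w)⁻¹ := by group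
    have hmem : ∀ x : R, conjHom R h x ∈ R := fun x => hRn.conj_mem x x.2 h
    obtain ⟨ψ, hψ, hψe⟩ := exists_aut_ext_of_res (hrec D hDs hDI.1) hnorm hRT (φ := conjHom R h)
      ⟨hRT, fun x => hRT (hmem x), h, hh, fun _ => rfl⟩ hmem (α := α) hres
    exact aut_mem_of_res_coprime hTp hRT hnorm hc'
      (fun a ha k hk => autGroup_conj_mem hDsi hTS le_rfl ha hk) (hleF E hEI.1 hα) hord
      (hleF D hDI.1 hψ) hψ (fun x => Subtype.ext ((hres x).symm.trans (hψe x).symm))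
  have h1 : E ≤ D := le_of_autGroup_top_le hTp hEs
    (fun U hU a ha k hk => autGroup_conj_mem hDsi hTS hU
      ((H96.mem_autGroup F (hU.trans hTS)).2 (hEI.1 U ((H96.mem_autGroup E hU).1 ha))) hk) hED
  have h2 : D ≤ E := le_of_autGroup_top_le hTp hDs
    (fun U hU a ha k hk => autGroup_conj_mem hEsi hTS hU
      ((H96.mem_autGroup F (hU.trans hTS)).2 (hDI.1 U ((H96.mem_autGroup D hU).1 ha))) hk) hDE
  exact Set.Subset.antisymm (h1 P) (h2 P)

/-- Normal subsystems of a strictly `p`-constrained group correspond to unique normal subgroups. -/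
theorem exists_unique_normal_subgroup (S : Sylow p G)
    (hG : Subgroup.centralizer ((Cfsg.pCore p G : Subgroup G) : Set G) ≤ Cfsg.pCore p G)
    {T : Subgroup G} {E : FusionSystem T}
    (hE : E.IsNormalIn (groupFusionSystem (S : Subgroup G)) p) :
    ∃ H : Subgroup G, (∃ hTH : T ≤ H, H.Normal ∧ (∃ R : Sylow p H, (R : Subgroup H) = T.subgroupOf H) ∧
        ∀ P : Subgroup G, E.Hom P = (fusionSystemOfSubgroup H T hTH).Hom P) ∧
      ∀ H' : Subgroup G, (∃ hTH' : T ≤ H', H'.Normal ∧ (∃ R : Sylow p H', (R : Subgroup H') = T.subgroupOf H') ∧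
        ∀ P : Subgroup G, E.Hom P = (fusionSystemOfSubgroup H' T hTH').Hom P) → H' = H := by
  obtain ⟨M, H, W, hHn, hHM, hTeq, hM, hW, hWQ, hdec, hHdef, hc⟩ :=
    exists_normal_subgroup_of_normal_subsystem S hG hE
  have hTS : T ≤ (S : Subgroup G) := hE.1.2.2.2.1.1
  have hTH : T ≤ H := hTeq.le.trans inf_le_right
  refine ⟨H, ⟨hTH, hHn, hTeq ▸ exists_sylow_inf_normal S H,
    normal_subsystem_eq S hE hHn hHM hTeq hM hW hdec hc hTH⟩, ?_⟩
  rintro H' ⟨hTH', hH'n, ⟨R', hR'⟩, hhom⟩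
  set Q := Cfsg.pCore p G
  haveI hQn : Q.Normal := H19.pCore_normal p G
  have hQS : Q ≤ (S : Subgroup G) := H19.pCore_le_sylow S
  have hS' : (S : Subgroup G) ⊓ H' ≤ T := fun x hx => by
    have hle : (R' : Subgroup H') ≤ ((S : Subgroup G) ⊓ H').subgroupOf H' := fun y hy =>
      ⟨hTS (Subgroup.mem_subgroupOf.1 (hR'.le hy)), y.2⟩
    exact hR'.le ((R'.is_maximal' (S.isPGroup'.to_le inf_le_left).comap_subtype hle).le
      (show (⟨x, hx.2⟩ : H') ∈ ((S : Subgroup G) ⊓ H').subgroupOf H' from hx))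
  have hRT : T ⊓ Q ≤ T := inf_le_left
  haveI hRn : (T ⊓ Q).Normal := ⟨fun x hx g => ⟨conj_mem_of_stronglyClosed_group hE.1.2.2.2.1 hx.1
    (hQS (hQn.conj_mem x hx.2 g)), hQn.conj_mem x hx.2 g⟩⟩
  have hH'M : H' ≤ M := fun h hh => by
    refine (hM h).2 ⟨?_, fun q hq => ?_⟩
    · have hmem : ∀ x : ↥(T ⊓ Q), conjHom (T ⊓ Q) h x ∈ T ⊓ Q := fun x => hRn.conj_mem x x.2 h
      have hφ : conjHom (T ⊓ Q) h ∈ E.Hom (T ⊓ Q) :=
        (hhom _).ge ⟨hRT, fun x => hRT (hmem x), h, hh, fun _ => rfl⟩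
      exact H96.exists_autGroup_of_mem E hφ hmem
    · have hd : q⁻¹ * (h * q * h⁻¹) ∈ Q := Q.mul_mem (Q.inv_mem hq) (hQn.conj_mem q hq h)
      refine ⟨hS' ⟨hQS hd, ?_⟩, hd⟩
      have h1 : q⁻¹ * h * q ∈ H' := by
        have := hH'n.conj_mem h hh q⁻¹
        rwa [inv_inv] at this
      simpa [mul_assoc] using H'.mul_mem h1 (H'.inv_mem hh)
  have hW' : ∀ w ∈ W, w ∈ H' → w ∈ T := fun w hw hw' => hS' ⟨hQS (hWQ hw), hw'⟩
  have hle : H ≤ H' := by
    rw [hHdef]
    refine sup_le hTH' ?_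
    haveI : (H'.subgroupOf M).Normal := hH'n.subgroupOf M
    set π := QuotientGroup.mk' (H'.subgroupOf M)
    have hp : IsPGroup p (M ⧸ H'.subgroupOf M) := by
      intro y
      obtain ⟨m, rfl⟩ := QuotientGroup.mk'_surjective (H'.subgroupOf M) y
      obtain ⟨⟨b, hb, hbe⟩, -⟩ := (hM m).1 m.2
      have hφ := (hhom _).le ((H96.mem_autGroup E hRT).1 hb)
      obtain ⟨-, -, h, hh, hhe⟩ := hφ
      have hwW : h⁻¹ * (m : G) ∈ W := by
        refine (hW _).2 ⟨M.mul_mem (M.inv_mem (hH'M hh)) m.2, Subgroup.mem_centralizer_iff.2 fun r hr => ?_⟩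
        have he : (m : G) * r * (m : G)⁻¹ = h * r * h⁻¹ := (hbe ⟨r, hr⟩).symm.trans (hhe ⟨r, hr⟩)
        calc r * (h⁻¹ * (m : G)) = h⁻¹ * (h * r * h⁻¹) * m := by group
          _ = h⁻¹ * ((m : G) * r * (m : G)⁻¹) * m := by rw [he]
          _ = h⁻¹ * (m : G) * r := by group
      obtain ⟨k, hk⟩ := (S.isPGroup'.to_le hQS) ⟨_, hWQ hwW⟩
      refine ⟨k, ?_⟩
      have hwM : h⁻¹ * (m : G) ∈ M := ((hW _).1 hwW).1
      have e : π m = π ⟨_, hwM⟩ := (QuotientGroup.eq (s := H'.subgroupOf M)).2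
        (Subgroup.mem_subgroupOf.2 (by
          show (m : G)⁻¹ * (h⁻¹ * (m : G)) ∈ H'
          have := hH'n.conj_mem h⁻¹ (H'.inv_mem hh) (m : G)⁻¹
          rwa [inv_inv, mul_assoc] at this))
      rw [e, ← map_pow, show (⟨_, hwM⟩ : M) ^ p ^ k = 1 from
        Subtype.ext (congrArg (fun z : Q => (z : G)) hk :), map_one]
    rintro _ ⟨k, hk, rfl⟩
    exact Subgroup.mem_subgroupOf.1
      ((QuotientGroup.eq_one_iff k).1 (H50.pResidual_le_ker π hp hk))
  refine le_antisymm (fun x hx => ?_) hle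
  obtain ⟨h, hh, w, hw, rfl⟩ := hdec x (hH'M hx)
  have hw' : w ∈ H' := by
    have := H'.mul_mem (H'.inv_mem (hle hh)) hx
    rwa [inv_mul_cancel_left] at this
  exact H.mul_mem hh (hTH (hW' w hw hw'))

end Cfsg.Agent.H94
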