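import Cfsg.Agent.H96.Subnormal
import Cfsg.Agent.H94.CentricExt
import Cfsg.Agent.H94.FactorSaturated
import Cfsg.Agent.H94.SatBasic

/-! A factor of a constrained system by a central subgroup is constrained. -/

set_option autoImplicit false

namespace Cfsg.Agent.H94

open Cfsg Cfsg.FusionSystem

variable {Ω : Type*} [Group Ω] {S : Subgroup Ω} [Finite S] {F : FusionSystem S} {p : ℕ} [Fact p.Prime]
  {Z : Subgroup Ω}

/-- Elements of a centric subgroup-containing domain move by elements of the centre. -/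
theorem apply_mem_of_fix_centric {Q N : Subgroup Ω} (hQ : F.IsCentric Q) (hQN : Q ≤ N)
    (hnorm : N ≤ Subgroup.normalizer (Q : Set Ω)) {ρ : N →* Ω} (hρ : ρ ∈ F.Hom N)
    (hfix : ∀ x : N, (x : Ω) ∈ Q → ρ x = x) (y : N) : ρ y ∈ N := by
  obtain ⟨hNS, hρS⟩ := F.le_of_mem hρ
  have h : (y : Ω)⁻¹ * ρ y ∈ Q := by
    refine hQ.2 Q (H96.isConj_refl F hQ.1) ⟨S.mul_mem (S.inv_mem (hNS y.2)) (hρS y),
      Subgroup.mem_centralizer_iff.2 fun r hr => ?_⟩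
    have hc : (y : Ω) * r * (y : Ω)⁻¹ ∈ Q := (Subgroup.mem_normalizer_iff.1 (hnorm y.2) r).1 hr
    have h := hfix (y * ⟨r, hQN hr⟩ * y⁻¹) hc
    rw [map_mul, map_mul, map_inv, hfix ⟨r, hQN hr⟩ hr] at h
    replace h : ρ y * r * (ρ y)⁻¹ = (y : Ω) * r * (y : Ω)⁻¹ := h
    calc r * ((y : Ω)⁻¹ * ρ y) = (y : Ω)⁻¹ * ((y : Ω) * r * (y : Ω)⁻¹) * ρ y := by group
      _ = (y : Ω)⁻¹ * (ρ y * r * (ρ y)⁻¹) * ρ y := by rw [h]
      _ = (y : Ω)⁻¹ * ρ y * r := by group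
  have := N.mul_mem y.2 (hQN h)
  rwa [mul_inv_cancel_left] at this

/-- Modulo a central subgroup, only the elements of the core act trivially on it. -/
theorem mem_core_of_commutator_mem (hS : IsPGroup p S) (hc : F.IsConstrained p) (hZ : F.StronglyClosed Z)
    (hfix : ∀ (P : Subgroup Ω) (φ : P →* Ω), φ ∈ F.Hom P → ∀ x : P, (x : Ω) ∈ Z → φ x = x)
    {a : Ω} (ha : a ∈ S) (hcomm : ∀ q ∈ F.core, a * q * a⁻¹ * q⁻¹ ∈ Z) : a ∈ F.core := by
  set Q := F.core with hQdef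
  have hQn : F.IsNormal Q := H96.isNormal_core F
  have hQc : F.IsCentric Q := H96.isCentric_core hc
  have hQsc := H93.IsNormal.stronglyClosed hQn
  have hQS := hQn.1
  have hcentral : ∀ s ∈ S, ∀ z ∈ Z, s * z * s⁻¹ = z := fun s hs z hz =>
    hfix Z _ (F.conj_mem hZ.1 hs) ⟨z, hz⟩ hz
  have hZQ : Z ≤ Q := fun z hz => hQc.2 Q (H96.isConj_refl F hQS) ⟨hZ.1 hz,
    Subgroup.mem_centralizer_iff.2 fun q hq => by
      have := hcentral q (hQS hq) z hz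
      rwa [mul_inv_eq_iff_eq_mul] at this⟩
  have := H96.finite_of_le (S := S) hQS
  let A : Subgroup Ω :=
    { carrier := {b | b ∈ S ∧ ∀ q ∈ Q, b * q * b⁻¹ * q⁻¹ ∈ Z}
      one_mem' := ⟨S.one_mem, fun q _ => by simp [Z.one_mem]⟩
      mul_mem' := by
        rintro b c ⟨hb, hb'⟩ ⟨hc, hc'⟩
        refine ⟨S.mul_mem hb hc, fun q hq => ?_⟩
        have h1 := hc' q hq
        rw [← hcentral b hb _ h1] at h1
        have := Z.mul_mem h1 (hb' q hq)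
        convert this using 1
        group
      inv_mem' := by
        rintro b ⟨hb, hb'⟩
        refine ⟨S.inv_mem hb, fun q hq => ?_⟩
        have h := Z.inv_mem (hb' _ (H93.StronglyClosed.conj_mem hQsc (S.inv_mem hb) hq))
        convert h using 1
        group }
  have hAS : A ≤ S := fun b hb => hb.1
  have hAQn : A ⊔ Q ≤ S := sup_le hAS hQS
  -- the stabilizer of `Q ≥ Z`
  let K : Subgroup (F.autGroup Q) :=
    { carrier := {α | ∀ x : Q, (((α : MulAut Q) x : Q) : Ω) * (x : Ω)⁻¹ ∈ Z}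
      one_mem' := fun x => by simp [Z.one_mem]
      mul_mem' := fun {α β} hα hβ x => by
        have h1 := hβ x
        have h2 := hfix Q _ ((H96.mem_autGroup F hQS).1 α.2) ((β : MulAut Q) x * x⁻¹) h1
        have h3 : ((((α : MulAut Q) ((β : MulAut Q) x)) : Q) : Ω) * (((α : MulAut Q) x : Q) : Ω)⁻¹ =
            (((β : MulAut Q) x : Q) : Ω) * (x : Ω)⁻¹ := by
          rw [show (((β : MulAut Q) x : Q) : Ω) * (x : Ω)⁻¹ = (((β : MulAut Q) x * x⁻¹ : Q) : Ω) from rfl,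
            ← h2]
          simp
        have := Z.mul_mem (h3 ▸ h1) (hα x)
        rwa [mul_assoc, inv_mul_cancel_left] at this
      inv_mem' := fun {α} hα x => by
        have h := Z.inv_mem (hα ((α⁻¹ : MulAut Q) x))
        rw [show (α : MulAut Q) ((α⁻¹ : MulAut Q) x) = x from (α : MulAut Q).apply_symm_apply x, mul_inv_rev,
          inv_inv] at h
        exact h }
  have hKp : IsPGroup p K := by
    intro κ
    obtain ⟨k, hk⟩ := H93.exists_pow_eq_one_of_chain (hS.to_le hQS) (γ := ((κ : F.autGroup Q) : MulAut Q))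
      0 (fun _ => Z) (fun i hi => le_rfl)
      (fun x hx => Subtype.ext (hfix Q _ ((H96.mem_autGroup F hQS).1 (κ : F.autGroup Q).2) x hx))
      (fun i hi => absurd hi (by omega)) (fun x => κ.2 x)
    exact ⟨k, Subtype.ext (Subtype.ext hk)⟩
  have hKn : K.Normal := ⟨fun κ hκ g x => by
    have h := hfix Q _ ((H96.mem_autGroup F hQS).1 g.2) ((κ : MulAut Q) (((g : MulAut Q)⁻¹) x) *
      (((g : MulAut Q)⁻¹) x)⁻¹) (hκ _)
    have e : (g : MulAut Q) ((κ : MulAut Q) (((g : MulAut Q)⁻¹) x) * (((g : MulAut Q)⁻¹) x)⁻¹) =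
        ((g * κ * g⁻¹ : F.autGroup Q) : MulAut Q) x * x⁻¹ := by
      rw [map_mul, map_inv]
      congr 2
      exact (g : MulAut Q).apply_symm_apply x
    rw [show (Q.subtype.comp (g : MulAut Q).toMonoidHom) _ = (((g : MulAut Q) _ : Q) : Ω) from rfl, e] at h
    show _ * _ ∈ Z
    rw [show ((((g * κ * g⁻¹ : F.autGroup Q) : MulAut Q) x : Q) : Ω) * (x : Ω)⁻¹ =
      ((((g * κ * g⁻¹ : F.autGroup Q) : MulAut Q) x * x⁻¹ : Q) : Ω) from rfl, h]
    exact hκ _⟩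
  have hQfn : F.IsFullyNormalized Q := ⟨hQS, fun R hR => by rw [H96.eq_of_isConj_normal hQn hR]⟩
  obtain ⟨⟨-, Sy, hSy⟩, hrec⟩ := fullyNormalized_spec hS hc.1 hQfn
  have hK : ∀ κ ∈ K, ∃ b ∈ S, ∀ x : Q, (((κ : MulAut Q) x : Q) : Ω) = b * (x : Ω) * b⁻¹ := by
    intro κ hκ
    have hle : K ≤ (Sy : Subgroup (F.autGroup Q)) :=
      sup_eq_right.1 (Sy.is_maximal' (hKp.to_sup_of_normal_left Sy.isPGroup') le_sup_right)
    have := hle hκ
    rw [hSy, Subgroup.mem_subgroupOf] at this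
    exact H96.mem_autInducedBy.1 this
  -- every automorphism of `Q` extends to `A ⊔ Q`
  have hext : ∀ α ∈ F.autGroup Q, ∃ γ ∈ F.autGroup (A ⊔ Q), ∀ x : Q,
      ((γ (Subgroup.inclusion le_sup_right x) : ↥(A ⊔ Q)) : Ω) = α x := by
    intro α hα
    set φ := Q.subtype.comp α.toMonoidHom
    have hφ : φ ∈ F.Hom Q := (H96.mem_autGroup F hQS).1 hα
    have hrange : φ.range = Q := H96.range_eq_of_forall_mem F hφ fun x => (α x).2
    have hnorm := H93.StronglyClosed.le_normalizer hQsc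
    have hAN : A ⊔ Q ≤ extender S Q φ := by
      refine sup_le (fun b hb => ?_) fun q hq => ?_
      · obtain ⟨β, hβ, hβb⟩ := exists_autInducedBy (P := Q) hb.1 (hnorm hb.1)
        have hβF : β ∈ F.autGroup Q := H96.autInducedBy_le_autGroup F hQS hβ
        have hmem : (⟨β, hβF⟩ : F.autGroup Q) ∈ K := fun x => by
          show ((β x : Q) : Ω) * (x : Ω)⁻¹ ∈ Z
          rw [hβb]
          exact hb.2 x x.2
        obtain ⟨c, hc, hc'⟩ := hK _ (hKn.conj_mem _ hmem ⟨α, hα⟩)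
        refine H96.mem_extender.2 ⟨hb.1, hnorm hb.1, c, hc, fun x hx => ?_⟩
        have := hc' (α x)
        show ((α ⟨_, hx⟩ : Q) : Ω) = _
        rw [show (⟨b * (x : Ω) * b⁻¹, hx⟩ : Q) = β x from Subtype.ext (hβb x).symm]
        refine Eq.trans ?_ this
        show _ = ((α (β (α.symm (α x))) : Q) : Ω)
        rw [MulEquiv.symm_apply_apply]
      · refine H96.mem_extender.2 ⟨hQS hq, hnorm (hQS hq), φ ⟨q, hq⟩, hQS (α _).2, fun x hx => ?_⟩
        rw [show (⟨q * (x : Ω) * q⁻¹, hx⟩ : Q) = ⟨q, hq⟩ * x * ⟨q, hq⟩⁻¹ from rfl, map_mul, map_mul,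
          map_inv]
    obtain ⟨ψ, hψ, hψe⟩ := hrec.2 Q φ hφ hrange
    have hψ' := H96.res_mem F hψ hAN
    set β := H96.res ψ hAN
    have hβQ : ∀ x : Q, β (Subgroup.inclusion le_sup_right x) = φ x := fun x => hψe x x.2 _
    have hβmem : ∀ y, β y ∈ A ⊔ Q := by
      refine H93.apply_mem_sup (fun b => Subgroup.mem_sup_left ?_) fun x => Subgroup.mem_sup_right ?_
      · refine ⟨(F.le_of_mem hψ').2 _, fun q hq => ?_⟩
        obtain ⟨x, hx⟩ := α.surjective ⟨q, hq⟩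
        have hφx : φ x = q := congrArg Subtype.val hx
        have hz : (b : Ω) * x * (b : Ω)⁻¹ * (x : Ω)⁻¹ ∈ Z := b.2.2 x x.2
        have e := hfix Q _ hφ ⟨_, hZQ hz⟩ hz
        set bb := Subgroup.inclusion (le_sup_left (b := Q)) b
        set xx := Subgroup.inclusion (le_sup_right (a := A)) x
        have e2 : β (bb * xx * bb⁻¹ * xx⁻¹) = φ ⟨_, hZQ hz⟩ :=
          hβQ ⟨_, hZQ hz⟩
        rw [e, map_mul, map_mul, map_mul, map_inv, map_inv, hβQ x, hφx] at e2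
        rw [e2]
        exact hz
      · rw [hβQ x]
        exact (α x).2
    obtain ⟨γ, hγ, hγe⟩ := H96.exists_autGroup_of_mem F hψ' hβmem
    exact ⟨γ, hγ, fun x => (hγe _).trans (hβQ x)⟩
  have hRn : F.IsNormal (A ⊔ Q) := by
    have := H96.finite_of_le (S := S) hAQn
    refine H96.isNormal_of_aut_extend hS hc.1 hAQn fun P hP φ hφ => ?_
    obtain ⟨ψ₀, hψ₀, h1, h2⟩ := H96.exists_ext_of_normal hQn hφ
    obtain ⟨α, hα, hαe⟩ := H96.exists_autGroup_of_mem F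
      (H96.res_mem F hψ₀ (le_sup_right : Q ≤ P ⊔ Q)) h2
    obtain ⟨γ, hγ, hγe⟩ := hext α hα
    have hN : P ⊔ Q ≤ A ⊔ Q := sup_le hP le_sup_right
    set N' := ((P ⊔ Q).subgroupOf (A ⊔ Q)).map ((A ⊔ Q).subtype.comp γ.toMonoidHom)
    have hN'le : N' ≤ A ⊔ Q := by rintro _ ⟨y, -, rfl⟩; exact (γ y).2
    have hinv := H96.res_mem F ((H96.mem_autGroup F hAQn).1 (inv_mem hγ)) hN'le
    have hmem : ∀ x : N', H96.res ((A ⊔ Q).subtype.comp (γ⁻¹).toMonoidHom) hN'le x ∈ P ⊔ Q := by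
      rintro ⟨_, y, hy, rfl⟩
      show (((γ⁻¹) (γ y) : ↥(A ⊔ Q)) : Ω) ∈ P ⊔ Q
      rw [show (γ⁻¹) (γ y) = y from γ.symm_apply_apply y]
      exact hy
    obtain ⟨ρ, hρ, hρe⟩ := H96.exists_comp F hinv hψ₀ hmem
    have hρy : ∀ (y : ↥(A ⊔ Q)) (hy : (y : Ω) ∈ P ⊔ Q), ρ ⟨(γ y : Ω), ⟨y, hy, rfl⟩⟩ = ψ₀ ⟨y, hy⟩ := by
      intro y hy
      rw [hρe]
      congr 1
      apply Subtype.ext
      show ((γ.symm ⟨(γ y : Ω), _⟩ : ↥(A ⊔ Q)) : Ω) = y
      rw [show (⟨(γ y : Ω), _⟩ : ↥(A ⊔ Q)) = γ y from rfl, γ.symm_apply_apply]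
    have hQN' : Q ≤ N' := fun q hq => by
      refine ⟨Subgroup.inclusion le_sup_right (α.symm ⟨q, hq⟩),
        Subgroup.mem_subgroupOf.2 (Subgroup.mem_sup_right (α.symm ⟨q, hq⟩).2), ?_⟩
      show ((γ (Subgroup.inclusion _ _) : ↥(A ⊔ Q)) : Ω) = q
      rw [hγe, α.apply_symm_apply]
    have hρfix : ∀ x : N', (x : Ω) ∈ Q → ρ x = x := by
      intro x hx
      have hy : ((Subgroup.inclusion le_sup_right (α.symm ⟨x, hx⟩) : ↥(A ⊔ Q)) : Ω) ∈ P ⊔ Q :=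
        Subgroup.mem_sup_right (α.symm ⟨x, hx⟩).2
      have e : ((γ (Subgroup.inclusion le_sup_right (α.symm ⟨x, hx⟩)) : ↥(A ⊔ Q)) : Ω) = x := by
        rw [hγe, α.apply_symm_apply]
      have h := hρy _ hy
      simp only [e] at h
      rw [h]
      refine Eq.trans (hαe (α.symm ⟨x, hx⟩)).symm ?_
      rw [α.apply_symm_apply]
    have hnormN' : N' ≤ Subgroup.normalizer (Q : Set Ω) :=
      (hN'le.trans hAQn).trans (H93.StronglyClosed.le_normalizer hQsc)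
    obtain ⟨δ, hδ, hδe⟩ := H96.exists_autGroup_of_mem F hρ
      (apply_mem_of_fix_centric hQc hQN' hnormN' hρ hρfix)
    obtain ⟨z, hzQ, -, hz⟩ := exists_conj_of_fix_centric hS hc.1 hQc hQN' (hN'le.trans hAQn) hnormN' hδ
      (fun x hx => Subtype.ext ((hδe x).trans (hρfix x hx)))
    refine ⟨MulAut.conj ⟨z, Subgroup.mem_sup_right hzQ⟩ * γ, fun x => ?_⟩
    have hx : (x : Ω) ∈ P ⊔ Q := Subgroup.mem_sup_left x.2
    rw [← h1 x, show Subgroup.inclusion le_sup_left x = (⟨x, hx⟩ : ↥(P ⊔ Q)) from rfl,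
      ← hρy ⟨x, hP x.2⟩ hx, ← hδe, hz]
    rfl
  have hle : A ⊔ Q ≤ Q := le_sSup hRn
  exact hle (Subgroup.mem_sup_left ⟨ha, hcomm⟩)

/-- A factor system of a constrained system by a central subgroup is constrained. -/
theorem factor_isConstrained (hS : IsPGroup p S) (hc : F.IsConstrained p) (hZ : F.StronglyClosed Z)
    (hfix : ∀ (P : Subgroup Ω) (φ : P →* Ω), φ ∈ F.Hom P → ∀ x : P, (x : Ω) ∈ Z → φ x = x)
    {Ω' : Type*} [Group Ω'] {S' : Subgroup Ω'} {θ : S →* Ω'} {E : FusionSystem S'}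
    (hE : F.IsFactorSystem Z θ E) : E.IsConstrained p := by
  obtain ⟨-, hker, hrange, hHom⟩ := id hE
  set Q := F.core with hQdef
  have hQn : F.IsNormal Q := H96.isNormal_core F
  have hQc : F.IsCentric Q := H96.isCentric_core hc
  have hQsc := H93.IsNormal.stronglyClosed hQn
  have hZQ : Z ≤ Q := fun z hz => hQc.2 Q (H96.isConj_refl F hQn.1) ⟨hZ.1 hz,
    Subgroup.mem_centralizer_iff.2 fun q hq => by
      have := hfix Z _ (F.conj_mem hZ.1 (hQn.1 hq)) ⟨z, hz⟩ hz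
      change q * z * q⁻¹ = z at this
      rwa [mul_inv_eq_iff_eq_mul] at this⟩
  set Q' := imageAlong θ Q
  have hQ'S : Q' ≤ S' := by
    intro y hy
    obtain ⟨x, -, rfl⟩ := mem_imageAlong.1 hy
    exact hrange ▸ ⟨x, rfl⟩
  have hpre : ∀ x : S, θ x ∈ Q' → (x : Ω) ∈ Q := by
    intro x hx
    obtain ⟨y, hy, hyx⟩ := mem_imageAlong.1 hx
    have h : ((y : Ω))⁻¹ * x ∈ Z := (hker (y⁻¹ * x)).1 (by rw [map_mul, map_inv, hyx, inv_mul_cancel])
    have := Q.mul_mem hy (hZQ h)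
    rwa [mul_inv_cancel_left] at this
  have hQ'n : E.IsNormal Q' := by
    refine ⟨hQ'S, fun P' φ' hφ' => ?_⟩
    obtain ⟨hP', φ, hφ, hP, hφS, hm, hind⟩ := (hHom P' φ').1 hφ'
    obtain ⟨ψ, hψ, h1, h2⟩ := H96.exists_ext_of_normal hQn hφ
    have hsup : P' ⊔ Q' ≤ S' := sup_le hP' hQ'S
    have hpreQ : preimageAlong θ (P' ⊔ Q') = preimageAlong θ P' ⊔ Q := by
      refine le_antisymm (fun x hx => ?_) (sup_le (fun x hx => ?_) fun x hx => ?_)
      · obtain ⟨hxS, hx'⟩ := mem_preimageAlong.1 hx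
        have hT : P' ⊔ Q' ≤ (((preimageAlong θ P' ⊔ Q).subgroupOf S)).map θ := by
          refine sup_le (fun y hy => ?_) fun y hy => ?_
          · obtain ⟨l, hlS, hlP, hl⟩ := exists_lift_preimageAlong hrange hP' ⟨y, hy⟩
            exact ⟨⟨l, hlS⟩, Subgroup.mem_sup_left hlP, hl⟩
          · obtain ⟨l, hl, hly⟩ := mem_imageAlong.1 hy
            exact ⟨l, Subgroup.mem_sup_right hl, hly⟩
        obtain ⟨y, hy, hyx⟩ := hT hx'
        have h : ((y : Ω))⁻¹ * x ∈ Z :=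
          (hker (y⁻¹ * ⟨x, hxS⟩)).1 (by rw [map_mul, map_inv, hyx, inv_mul_cancel])
        have := (preimageAlong θ P' ⊔ Q).mul_mem (show (y : Ω) ∈ _ from hy) (Subgroup.mem_sup_right (hZQ h))
        rwa [mul_inv_cancel_left] at this
      · obtain ⟨hxS, hx'⟩ := mem_preimageAlong.1 hx
        exact mem_preimageAlong.2 ⟨hxS, Subgroup.mem_sup_left hx'⟩
      · exact mem_preimageAlong.2 ⟨hQn.1 hx,
          Subgroup.mem_sup_right (mem_imageAlong.2 ⟨⟨x, hQn.1 hx⟩, hx, rfl⟩)⟩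
    have hψ2 := H96.res_mem F hψ hpreQ.le
    obtain ⟨ψ', hψ'⟩ := exists_induced hZ hker hrange hsup hψ2
    refine ⟨ψ', (hHom _ ψ').2 ⟨hsup, _, hψ2, hψ'⟩, ?_⟩
    obtain ⟨hP2, hψS, hm2, hind2⟩ := hψ'
    refine ⟨fun x => ?_, le_antisymm ?_ fun y hy => ?_⟩
    · obtain ⟨l, hlS, hlP, hl⟩ := exists_lift_preimageAlong hrange hP' x
      have hl2 : l ∈ preimageAlong θ (P' ⊔ Q') := hpreQ.ge (Subgroup.mem_sup_left hlP)
      have e1 := hind ⟨l, hlP⟩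
      have e2 := hind2 ⟨l, hl2⟩
      have e3 : (⟨θ ⟨l, hP hlP⟩, hm ⟨l, hlP⟩⟩ : P') = x := Subtype.ext hl
      rw [e3] at e1
      rw [e1, show Subgroup.inclusion le_sup_left x = ⟨θ ⟨l, hP2 hl2⟩, hm2 ⟨l, hl2⟩⟩ from Subtype.ext hl.symm,
        e2]
      congr 1
      exact Subtype.ext (h1 ⟨l, hlP⟩)
    · rintro _ ⟨y, hy, rfl⟩
      obtain ⟨l, hlS, hlP, hl⟩ := exists_lift_preimageAlong hrange hsup y
      have hlQ : l ∈ Q := hpre ⟨l, hlS⟩ (hl ▸ Subgroup.mem_subgroupOf.1 hy)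
      rw [show y = ⟨θ ⟨l, hP2 hlP⟩, hm2 ⟨l, hlP⟩⟩ from Subtype.ext hl.symm]
      exact mem_imageAlong.2 ⟨_, h2 ⟨l, hlQ⟩, (hind2 ⟨l, hlP⟩).symm⟩
    · obtain ⟨x, hx, rfl⟩ := mem_imageAlong.1 hy
      have h3 := hψ2
      have hsurj : ∀ q ∈ Q, ∃ u : Q, ψ (Subgroup.inclusion le_sup_right u) = q := by
        intro q hq
        obtain ⟨a, -, hae⟩ := H96.exists_autGroup_of_mem F
          (H96.res_mem F hψ (le_sup_right : Q ≤ preimageAlong θ P' ⊔ Q)) h2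
        obtain ⟨u, hu⟩ := a.surjective ⟨q, hq⟩
        exact ⟨u, (hae u).symm.trans (congrArg Subtype.val hu)⟩
      obtain ⟨u, hu⟩ := hsurj x hx
      have hu2 : (u : Ω) ∈ preimageAlong θ (P' ⊔ Q') := hpreQ.ge (Subgroup.mem_sup_right u.2)
      refine ⟨⟨θ ⟨u, hP2 hu2⟩, hm2 ⟨u, hu2⟩⟩,
        Subgroup.mem_subgroupOf.2 (mem_imageAlong.2 ⟨⟨u, hP2 hu2⟩, u.2, rfl⟩), ?_⟩
      exact (hind2 ⟨u, hu2⟩).trans (congrArg θ (Subtype.ext hu))
  refine ⟨factor_isSaturated hS hc.1 hZ hE, Q', hQ'n, hQ'S, fun R hR y hy => ?_⟩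
  rw [H96.eq_of_isConj_normal hQ'n hR] at hy ⊢
  obtain ⟨x, hx⟩ : y ∈ θ.range := hrange.symm ▸ hy.1
  refine mem_imageAlong.2 ⟨x, ?_, hx⟩
  refine mem_core_of_commutator_mem hS hc hZ hfix x.2 fun q hq => ?_
  refine (hker (x * ⟨q, hQn.1 hq⟩ * x⁻¹ * ⟨q, hQn.1 hq⟩⁻¹)).1 ?_
  have := Subgroup.mem_centralizer_iff.1 hy.2 (θ ⟨q, hQn.1 hq⟩) (mem_imageAlong.2 ⟨_, hq, rfl⟩)
  rw [map_mul, map_mul, map_mul, map_inv, map_inv, hx, ← this, mul_inv_cancel_right, mul_inv_cancel]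

end Cfsg.Agent.H94
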