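import Cfsg.Agent.H94.ConstrainedQuotient
import Cfsg.Agent.H94.NormalSubgroupSystem
import Cfsg.Agent.S0542

/-! Constrained fusion systems and subnormal subgroups. -/

set_option autoImplicit false

namespace Cfsg.Agent.H94

open Cfsg Cfsg.FusionSystem

variable {G K : Type*} [Group G] [Group K] {p : ℕ} [Fact p.Prime]

/-- The system of the range of an injective homomorphism, read in the source. -/
theorem isFactorSystem_pullback (f : K →* G) (hf : Function.Injective f) (T : Subgroup K) :
    (fusionSystemOfSubgroup f.range (T.map f) (Subgroup.map_le_range f T)).IsFactorSystem ⊥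
      (T.subtype.comp (T.equivMapOfInjective f hf).symm.toMonoidHom) (groupFusionSystem T) := by
  set θ := T.subtype.comp (T.equivMapOfInjective f hf).symm.toMonoidHom
  have hθf : ∀ s, f (θ s) = (s : G) := fun s => by
    have h := congrArg Subtype.val ((T.equivMapOfInjective f hf).apply_symm_apply s)
    exact ((Subgroup.coe_equivMapOfInjective_apply T f hf _).symm).trans h
  have hrange : θ.range = T := by
    refine le_antisymm ?_ fun t ht => ⟨⟨f t, Subgroup.mem_map_of_mem f ht⟩, hf (hθf _)⟩
    rintro _ ⟨s, rfl⟩
    exact ((T.equivMapOfInjective f hf).symm s).2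
  refine ⟨bot_le, fun s => ?_, hrange, fun P' φ' => ⟨?_, ?_⟩⟩
  · rw [Subgroup.mem_bot, ← hθf s]
    exact ⟨fun h => by rw [h, map_one], fun h => hf (h.trans f.map_one.symm)⟩
  · rintro ⟨hP', hφ'T, g, hg⟩
    have hval : ∀ x : preimageAlong θ P', f g * (x : G) * (f g)⁻¹ =
        f (φ' ⟨θ ⟨x, preimageAlong_le x.2⟩, (mem_preimageAlong.mp x.2).2⟩) := fun x => by
      rw [hg, map_mul, map_mul, map_inv, hθf]
    have hmem : ∀ x : preimageAlong θ P', f g * (x : G) * (f g)⁻¹ ∈ T.map f := fun x => by
      rw [hval]
      exact Subgroup.mem_map_of_mem f (hφ'T _)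
    refine ⟨hP', conjHom _ (f g), ⟨preimageAlong_le, hmem, f g, ⟨g, rfl⟩, fun _ => rfl⟩,
      preimageAlong_le, hmem, fun x => (mem_preimageAlong.mp x.2).2, fun x => hf ?_⟩
    rw [hθf]
    exact (hval x).symm
  · rintro ⟨hP', φ, ⟨-, -, _, ⟨g, rfl⟩, hge⟩, hP2, hφS, hm, hind⟩
    refine ⟨hP', fun z => ?_, g, fun z => ?_⟩ <;>
      obtain ⟨x, hxS, hxP, hxz⟩ := exists_lift_preimageAlong hrange hP' z <;>
      rw [show z = ⟨θ ⟨x, hP2 hxP⟩, hm ⟨x, hxP⟩⟩ from Subtype.ext hxz.symm, hind ⟨x, hxP⟩]
    · exact hrange.le ⟨_, rfl⟩
    · refine hf ?_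
      rw [hθf, map_mul, map_mul, map_inv, hθf]
      exact hge _

variable [Finite G] [Finite K]

/-- A subgroup normal in a group with constrained fusion has constrained fusion. -/
theorem isConstrained_comap_normal (f : K →* G) (hf : Function.Injective f) [f.range.Normal] (S : Sylow p G)
    (hc : (groupFusionSystem (S : Subgroup G)).IsConstrained p) :
    (groupFusionSystem ((S : Subgroup G).comap f)).IsConstrained p := by
  have h0 := H96.isConstrained_of_weaklyNormal S.isPGroup' hc (isNormalIn_normalSubgroup S f.range).1
  have key : ∀ (U : Subgroup G) (hU : U ≤ f.range), IsPGroup p U → ((S : Subgroup G).comap f).map f = U →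
      (fusionSystemOfSubgroup f.range U hU).IsConstrained p →
      (groupFusionSystem ((S : Subgroup G).comap f)).IsConstrained p := by
    rintro U hU hUp rfl hc'
    refine factor_isConstrained hUp hc' (H96.stronglyClosed_bot _) (fun P φ _ x hx => ?_)
      (isFactorSystem_pullback f hf _)
    rw [show x = 1 from Subtype.ext (Subgroup.mem_bot.1 hx), map_one]
    rfl
  refine key _ inf_le_right (S.isPGroup'.to_le inf_le_left) ?_ h0
  rw [Subgroup.map_comap_eq, inf_comm]

/-- A subnormal subgroup of a group with constrained fusion has constrained fusion. -/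
theorem isConstrained_subnormal (S : Sylow p G) (hc : (groupFusionSystem (S : Subgroup G)).IsConstrained p)
    {H : Subgroup G} (hH : H.IsSubnormal) :
    (groupFusionSystem ((S : Subgroup G).subgroupOf H)).IsConstrained p := by
  induction hH with
  | top =>
    have : ((⊤ : Subgroup G).subtype.range).Normal := by
      rw [Subgroup.range_subtype]; infer_instance
    exact isConstrained_comap_normal (⊤ : Subgroup G).subtype Subtype.val_injective S hc
  | step H K hle hK hN ih =>
    obtain ⟨R, hR⟩ := S0542.result p K hK S
    rw [← hR] at ih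
    have : ((Subgroup.inclusion hle).range).Normal := by
      rw [Subgroup.inclusion_range]; exact hN
    have h := isConstrained_comap_normal (Subgroup.inclusion hle) (Subgroup.inclusion_injective hle) R ih
    rw [hR] at h
    exact h

/-- The fusion system of a component modulo its centre is constrained. -/
theorem isConstrained_quotient_center (S : Sylow p G) (hc : (groupFusionSystem (S : Subgroup G)).IsConstrained p)
    {L : Subgroup G} (hL : L.IsSubnormal) :
    (groupFusionSystem (((S : Subgroup G).subgroupOf L).map
      (QuotientGroup.mk' (Subgroup.center L)))).IsConstrained p := by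
  obtain ⟨R, hR⟩ := S0542.result p L hL S
  have h := isConstrained_subnormal S hc hL
  rw [← hR] at h ⊢
  refine factor_isConstrained R.isPGroup' h (stronglyClosed_inf_normal R (Subgroup.center L)) ?_
    (isFactorSystem_quotient p R (Subgroup.center L))
  rintro P φ ⟨-, -, g, hg⟩ x ⟨-, hx⟩
  rw [hg, Subgroup.mem_center_iff.1 hx g, mul_inv_cancel_right]

end Cfsg.Agent.H94
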