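import Cfsg.Agent.H13.Engine
import Cfsg.Agent.H94.ConstrainedSetup
import Cfsg.Agent.H96.Simple
import Cfsg.Agent.H93.Group

/-!
A kernel-checkable certificate that the fusion system of a permutation group on a Sylow subgroup is simple:
the Sylow subgroup is listed, is shown self-normalizing by a pruned search through a stabiliser chain, and a
derivation shows that every nontrivial element generates it as a strongly closed subgroup.
-/

set_option autoImplicit false

namespace Cfsg.Agent.H94

open Cfsg Cfsg.FusionSystem
open Cfsg.Agent.H13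
open scoped Pointwise

/-- A derivation step: a product of known elements, or a conjugate of a known element by a witness. -/
inductive DerivStep
  | mul (i j : ℕ)
  | conj (i k : ℕ)

/-- The certificate data. -/
structure FusionCert where
  levels : List Level
  sylow : List PL
  witnesses : List PL
  pivot : ℕ
  toPivot : List (List DerivStep)
  fromPivot : List DerivStep

namespace FusionCert

variable (n : ℕ) (c : FusionCert)

/-- The image lists of the Sylow subgroup. -/
def imgs : List (List ℕ) := c.sylow.map fun a => a.1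

/-- One derivation step. -/
def stepFun (known : List PL) : DerivStep → List PL
  | .mul i j => known ++ [mulP (known.getD i (oneP n)) (known.getD j (oneP n))]
  | .conj i k =>
    let w := c.witnesses.getD k (oneP n)
    let v := mulP (mulP w (known.getD i (oneP n))) (invP w)
    known ++ [if c.imgs.contains v.1 then v else oneP n]

/-- Running a derivation. -/
def derive (steps : List DerivStep) (known : List PL) : List PL := steps.foldl (stepFun n c) known

/-- The size of the orbit of a point under the Sylow subgroup. -/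
def orbitCard (i : ℕ) : ℕ := (c.imgs.map fun a => a.getD i 0).toFinset.card

/-- The leaf test: in the Sylow subgroup, or not normalizing it. -/
def leaf (u : PL) : Bool :=
  c.imgs.contains u.1 || !(c.sylow.all fun s => c.imgs.contains (mulP (mulP u s) (invP u)).1)

/-- The pruned search through the chain. -/
def search : List (ℕ × List PL) → PL → Bool
  | [], u => c.leaf u
  | (b, T) :: rest, u0 => T.all fun u =>
      c.orbitCard ((mulP u0 u).1.getD b 0) != c.orbitCard b || search rest (mulP u0 u)

/-- The certificate check. -/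
def ok (gens : List PL) : Bool :=
  H13.check n c.levels gens &&
  (c.sylow.all fun a => validB n a && sift n (chain n c.levels gens) a.1) &&
  (c.witnesses.all fun a => validB n a && sift n (chain n c.levels gens) a.1) &&
  c.imgs.contains (List.range n) &&
  (c.sylow.all fun a => c.imgs.contains a.2) &&
  (c.sylow.all fun a => c.sylow.all fun b => c.imgs.contains (mulL a.1 b.1)) &&
  decide c.imgs.Nodup &&
  search c (chain n c.levels gens) (oneP n) &&
  decide (c.pivot < c.sylow.length) &&
  ((List.range c.sylow.length).all fun i => (c.sylow.getD i (oneP n)).1 == List.range n ||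
    ((derive n c (c.toPivot.getD i []) [c.sylow.getD i (oneP n)]).map fun a => a.1).contains
      (c.sylow.getD c.pivot (oneP n)).1) &&
  (let known := (derive n c c.fromPivot [c.sylow.getD c.pivot (oneP n)]).map fun a => a.1
   c.imgs.all fun a => known.contains a)

end FusionCert

open FusionCert

variable {n : ℕ} {c : FusionCert}

/-- The search visits every element that preserves orbit sizes. -/
theorem search_spec (c : FusionCert) : ∀ (L : List Level) (S : List PL),
    (∀ a ∈ S, Valid (⊤ : Subgroup (Equiv.Perm (Fin n))) a) → H13.check n L S = true →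
    ∀ (σ h : Equiv.Perm (Fin n)), h ∈ genGroup n S →
      c.search (chain n L S) (img σ, img σ⁻¹) = true →
      (∀ i : Fin n, c.orbitCard ((σ * h) i : Fin n) = c.orbitCard i) →
      c.leaf (img (σ * h), img (σ * h)⁻¹) = true
  | [], S, hS, hc, σ, h, hh, hs, _ => by
    have := (check_spec [] S hS hc).1
    rw [← SetLike.mem_coe, this] at hh
    rw [show h = 1 from hh, mul_one]
    exact hs
  | d :: rest, S, hS, hc, σ, h, hh, hs, hf => by
    have hc' := hc
    simp only [H13.check, Bool.and_eq_true, decide_eq_true_eq] at hc'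
    obtain ⟨⟨⟨⟨hb, -⟩, -⟩, hrest⟩, -⟩ := hc'
    have hS' := nextGens_valid d hS
    rw [← SetLike.mem_coe, (check_spec (d :: rest) S hS hc).1] at hh
    obtain ⟨u, hu, w, hw, rfl⟩ := hh
    rw [← (check_spec rest _ hS' hrest).1] at hw
    have hwb : w ⟨d.base, hb⟩ = ⟨d.base, hb⟩ := by
      have := hw
      rw [SetLike.mem_coe, ← stabilizer_eq d rest S ⟨d.base, hb⟩ rfl hS hc] at this
      exact this.2
    have hv : mulP (img σ, img σ⁻¹) (img u, img u⁻¹) = (img (σ * u), img (σ * u)⁻¹) := by
      rw [mulP, mulL_img, mulL_img, mul_inv_rev]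
    have h1 := hs
    rw [chain, FusionCert.search, List.all_eq_true] at h1
    have h2 := h1 _ hu
    rw [hv] at h2
    have hfb : c.orbitCard ((img (σ * u)).getD d.base 0) = c.orbitCard d.base := by
      rw [show (img (σ * u)).getD d.base 0 = _ from img_getD (σ * u) ⟨d.base, hb⟩]
      have := hf ⟨d.base, hb⟩
      rw [Equiv.Perm.mul_apply, Equiv.Perm.mul_apply, hwb] at this
      exact this
    rw [hfb] at h2
    simp only [bne_self_eq_false, Bool.false_or] at h2
    have := search_spec c rest _ hS' hrest (σ * u) w hw h2 (fun i => by rw [mul_assoc]; exact hf i)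
    rwa [mul_assoc] at this

variable {p : ℕ} [Fact p.Prime]

/-- A certified permutation group has a simple fusion system on each Sylow subgroup. -/
theorem isSimple_of_fusionCert {G : Type*} [Group G] [Finite G] (S : Sylow p G)
    (e : G →* Equiv.Perm (Fin n)) (he : Function.Injective e) {gens : List PL}
    (hv : gens.all (validB n) = true) (hrange : e.range = genGroup n gens)
    (hok : c.ok n gens = true) (k m : ℕ) (hk : 0 < k) (hlen : c.sylow.length = p ^ k)
    (hcard : chainCard c.levels = p ^ k * m) (hm : ¬ p ∣ m) :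
    (groupFusionSystem (S : Subgroup G)).IsSimple p := by
  simp only [FusionCert.ok, Bool.and_eq_true, List.all_eq_true, decide_eq_true_eq] at hok
  obtain ⟨⟨⟨⟨⟨⟨⟨⟨⟨⟨hcheck, hsyl⟩, hwit⟩, hone⟩, hinv⟩, hmul⟩, hnodup⟩, hsearch⟩, hpiv⟩, hto⟩, hfrom⟩ := hok
  have hgv : ∀ a ∈ gens, Valid (⊤ : Subgroup (Equiv.Perm (Fin n))) a := fun a ha =>
    valid_of_validB (List.all_eq_true.mp hv a ha)
  obtain ⟨hprod, hGcard⟩ := check_spec c.levels gens hgv hcheck
  have hmem : ∀ a : PL, validB n a = true → sift n (chain n c.levels gens) a.1 = true →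
      ∃ x : G, a = (img (e x), img (e x)⁻¹) := by
    intro a ha hs
    obtain ⟨σ, -, rfl⟩ := valid_of_validB ha
    have hσ : σ ∈ e.range := by
      rw [hrange, ← SetLike.mem_coe, hprod]
      exact mem_prodSet_of_sift _ (chain_valid c.levels gens hgv) σ hs
    obtain ⟨x, rfl⟩ := hσ
    exact ⟨x, rfl⟩
  have hsylG : ∀ a ∈ c.sylow, ∃ x : G, a = (img (e x), img (e x)⁻¹) := fun a ha =>
    hmem a (hsyl a ha).1 (hsyl a ha).2
  -- the listed Sylow subgroup
  let S₀ : Subgroup G :=
    { carrier := {x | img (e x) ∈ c.imgs}
      one_mem' := by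
        show img (e 1) ∈ c.imgs
        rw [map_one, img_one]; exact List.contains_iff_mem.mp hone
      mul_mem' := fun {x y} hx hy => by
        obtain ⟨a, ha, hax⟩ := List.mem_map.mp hx
        obtain ⟨b, hb, hby⟩ := List.mem_map.mp hy
        have := List.contains_iff_mem.mp (hmul a ha b hb)
        rw [hax, hby, mulL_img, ← map_mul] at this
        exact this
      inv_mem' := fun {x} hx => by
        obtain ⟨a, ha, hax⟩ := List.mem_map.mp hx
        obtain ⟨z, rfl⟩ := hsylG a ha
        obtain rfl : z = x := he (img_injective hax)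
        have := List.contains_iff_mem.mp (hinv _ ha)
        rw [← map_inv] at this
        exact this }
  have hS₀card : Nat.card S₀ = c.imgs.length := by
    rw [← List.toFinset_card_of_nodup hnodup, ← Nat.card_eq_finsetCard]
    refine Nat.card_congr (Equiv.ofBijective (fun x => ⟨img (e x.1), List.mem_toFinset.mpr x.2⟩) ⟨?_, ?_⟩)
    · intro x y h
      exact Subtype.ext (he (img_injective (congrArg Subtype.val h)))
    · rintro ⟨a, ha⟩
      obtain ⟨b, hb, rfl⟩ := List.mem_map.mp (List.mem_toFinset.mp ha)
      obtain ⟨x, rfl⟩ := hsylG b hb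
      exact ⟨⟨x, List.mem_toFinset.mp ha⟩, rfl⟩
  have hlen' : c.imgs.length = p ^ k := by rw [FusionCert.imgs, List.length_map, hlen]
  have hG : Nat.card G = p ^ k * m := by
    rw [← hcard, ← hGcard, ← hrange]
    exact Nat.card_congr (MonoidHom.ofInjective he).toEquiv
  have hidx : ¬ p ∣ S₀.index := by
    have := S₀.card_mul_index
    rw [hS₀card, hlen', hG] at this
    rwa [Nat.eq_of_mul_eq_mul_left (pow_pos (Fact.out : p.Prime).pos k) this]
  set P : Sylow p G := (IsPGroup.of_card (hS₀card.trans hlen')).toSylow hidx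
  -- move the given Sylow subgroup onto the listed one
  obtain ⟨g₀, hg₀⟩ := MulAction.exists_smul_eq G S P
  have hS : ∀ x : G, x ∈ (S : Subgroup G) ↔ img (e (g₀ * x * g₀⁻¹)) ∈ c.imgs := by
    intro x
    have h : g₀ * x * g₀⁻¹ ∈ (P : Subgroup G) ↔ x ∈ (S : Subgroup G) := by
      rw [← hg₀, Sylow.coe_subgroup_smul]
      exact Subgroup.smul_mem_pointwise_smul_iff
    exact h.symm
  set f : G →* Equiv.Perm (Fin n) := e.comp (MulAut.conj g₀).toMonoidHom
  have hf : Function.Injective f := he.comp (MulAut.conj g₀).injective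
  have hfS : ∀ x : G, x ∈ (S : Subgroup G) ↔ img (f x) ∈ c.imgs := hS
  have hfsurj : ∀ y : G, ∃ x : G, f x = e y := fun y =>
    ⟨g₀⁻¹ * y * g₀, by show e (g₀ * (g₀⁻¹ * y * g₀) * g₀⁻¹) = e y; congr 1; group⟩
  have hsylF : ∀ a ∈ c.sylow, ∃ x ∈ (S : Subgroup G), a = (img (f x), img (f x)⁻¹) := by
    intro a ha
    obtain ⟨y, rfl⟩ := hsylG a ha
    obtain ⟨x, hx⟩ := hfsurj y
    exact ⟨x, (hfS x).2 (hx ▸ List.mem_map.mpr ⟨_, ha, rfl⟩), by rw [hx]⟩
  have hnorm : ∀ g ∈ Subgroup.normalizer ((S : Subgroup G) : Set G), g ∈ (S : Subgroup G) := by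
    intro g hg
    have hconj : ∀ x : G, x ∈ (S : Subgroup G) ↔ g * x * g⁻¹ ∈ (S : Subgroup G) :=
      Subgroup.mem_normalizer_iff.1 hg
    have hgrp : f g ∈ genGroup n gens := by
      rw [← hrange]; exact ⟨_, rfl⟩
    have hinvar : ∀ i : Fin n, c.orbitCard ((f g) i : Fin n) = c.orbitCard i := by
      intro i
      have horb : ∀ j : Fin n, (c.imgs.map fun a => a.getD (j : ℕ) 0).toFinset =
          (Set.toFinite {y : Fin n | ∃ x ∈ (S : Subgroup G), f x j = y}).toFinset.image Fin.val := by
        intro j
        ext v
        simp only [List.mem_toFinset, List.mem_map, Finset.mem_image, Set.Finite.mem_toFinset,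
          Set.mem_setOf_eq]
        constructor
        · rintro ⟨a, ha, rfl⟩
          obtain ⟨b, hb, rfl⟩ := List.mem_map.mp ha
          obtain ⟨x, hx, rfl⟩ := hsylF b hb
          exact ⟨_, ⟨x, hx, rfl⟩, (img_getD _ _).symm⟩
        · rintro ⟨_, ⟨x, hx, rfl⟩, rfl⟩
          exact ⟨_, (hfS x).1 hx, img_getD _ _⟩
      unfold FusionCert.orbitCard
      rw [horb, horb, Finset.card_image_of_injective _ Fin.val_injective,
        Finset.card_image_of_injective _ Fin.val_injective,
        ← Finset.card_image_of_injective (Set.toFinite {y : Fin n | ∃ x ∈ (S : Subgroup G), f x i = y}).toFinset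
          (f g).injective]
      congr 1
      ext v
      simp only [Set.Finite.mem_toFinset, Set.mem_setOf_eq, Finset.mem_image]
      constructor
      · rintro ⟨x, hx, rfl⟩
        refine ⟨f (g⁻¹ * x * g) i, ⟨g⁻¹ * x * g, (hconj _).2 ?_, rfl⟩, ?_⟩
        · simpa [mul_assoc] using hx
        · simp [map_mul, Equiv.Perm.mul_apply]
      · rintro ⟨_, ⟨x, hx, rfl⟩, rfl⟩
        exact ⟨g * x * g⁻¹, (hconj x).1 hx, by simp [map_mul, Equiv.Perm.mul_apply]⟩
    have hsearch' : c.search (chain n c.levels gens) (img (1 : Equiv.Perm (Fin n)), img (1 : Equiv.Perm (Fin n))⁻¹) = true := by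
      rw [inv_one, img_one]; exact hsearch
    have hleaf := search_spec c c.levels gens hgv hcheck 1 (f g) hgrp hsearch' (by simpa using hinvar)
    rw [one_mul, FusionCert.leaf, Bool.or_eq_true] at hleaf
    rcases hleaf with h | h
    · exact (hfS g).2 (List.contains_iff_mem.mp h)
    · exfalso
      have hall : (c.sylow.all fun s =>
          c.imgs.contains (mulP (mulP (img (f g), img (f g)⁻¹) s) (invP (img (f g), img (f g)⁻¹))).1) = true := by
        rw [List.all_eq_true]
        intro s hs
        obtain ⟨x, hx, rfl⟩ := hsylF s hs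
        refine List.contains_iff_mem.mpr ?_
        simp only [mulP, invP, mulL_img]
        rw [← map_mul, ← map_inv, ← map_mul]
        exact (hfS _).1 ((hconj x).1 hx)
      rw [hall] at h
      exact absurd h (by decide)
  have hsat := H93.isSaturated_groupFusionSystem S
  have hS1 : (S : Subgroup G) ≠ ⊥ := by
    intro h
    have h1 := Sylow.card_eq_multiplicity S
    rw [h, Subgroup.card_bot] at h1
    have h2 : Nat.card S₀ = p ^ (Nat.card G).factorization p := Sylow.card_eq_multiplicity P
    rw [hS₀card, hlen', ← h1] at h2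
    exact absurd h2 (Nat.one_lt_pow hk.ne' (Fact.out : p.Prime).one_lt).ne'
  refine H96.isSimple_of_inner_top _ p hsat hS1 ?_ fun T hT => ?_
  · refine le_antisymm (fun α hα => ?_) ?_
    · rw [H93.autGroup_groupFusion S le_rfl] at hα
      obtain ⟨g, -, hge⟩ := H96.mem_autInducedBy.1 hα
      have hgN : g ∈ Subgroup.normalizer ((S : Subgroup G) : Set G) := by
        refine Subgroup.mem_normalizer_iff.2 fun x => ⟨fun hx => hge ⟨x, hx⟩ ▸ (α _).2, fun hx => ?_⟩
        obtain ⟨y, hy⟩ := α.surjective ⟨_, hx⟩
        have h := hge y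
        rw [hy] at h
        obtain rfl : x = y := mul_left_cancel (mul_right_cancel h)
        exact y.2
      exact H96.mem_inn_iff.2 ⟨g, hnorm g hgN, hge⟩
    · rw [H93.inn_eq_autInducedBy]
      exact H96.autInducedBy_le_autGroup _ le_rfl
  · by_cases hT1 : T = ⊥
    · exact Or.inl hT1
    refine Or.inr (le_antisymm hT.1 ?_)
    let Known : List PL → Prop := fun l => ∀ a ∈ l, ∃ x ∈ T, a = (img (f x), img (f x)⁻¹)
    have hdef : ∀ (l : List PL), Known l → ∀ i, ∃ x ∈ T, l.getD i (oneP n) = (img (f x), img (f x)⁻¹) := by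
      intro l hl i
      rw [List.getD_eq_getElem?_getD]
      cases h : l[i]? with
      | none => exact ⟨1, T.one_mem, by simp [oneP, img_one]⟩
      | some a => exact hl a (List.mem_of_getElem? h)
    have hderive : ∀ (steps : List DerivStep) (l : List PL), Known l → Known (c.derive n steps l) := by
      intro steps
      induction steps with
      | nil => exact fun l hl => hl
      | cons s steps ih =>
        intro l hl
        refine ih (c.stepFun n l s) fun a ha => ?_
        cases s with
        | mul i j =>
          rcases List.mem_append.mp ha with ha | ha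
          · exact hl a ha
          obtain ⟨x, hx, hxe⟩ := hdef l hl i
          obtain ⟨y, hy, hye⟩ := hdef l hl j
          refine ⟨x * y, T.mul_mem hx hy, ?_⟩
          rw [List.mem_singleton.mp ha, hxe, hye, mulP, mulL_img, mulL_img, map_mul, mul_inv_rev]
        | conj i k =>
          rcases List.mem_append.mp ha with ha | ha
          · exact hl a ha
          rw [List.mem_singleton.mp ha]
          split
          · rename_i hv
            obtain ⟨x, hx, hxe⟩ := hdef l hl i
            obtain ⟨w, hwe⟩ : ∃ w : G, c.witnesses.getD k (oneP n) = (img (f w), img (f w)⁻¹) := by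
              rw [List.getD_eq_getElem?_getD]
              cases h : c.witnesses[k]? with
              | none => exact ⟨1, by simp [oneP, img_one]⟩
              | some a =>
                obtain ⟨y, rfl⟩ := hmem a (hwit a (List.mem_of_getElem? h)).1 (hwit a (List.mem_of_getElem? h)).2
                obtain ⟨z, hz⟩ := hfsurj y
                exact ⟨z, by simp [hz]⟩
            rw [hwe, hxe] at hv ⊢
            simp only [mulP, invP, mulL_img, List.contains_iff_mem] at hv ⊢
            rw [← map_mul, ← map_inv, ← map_mul] at hv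
            refine ⟨w * x * w⁻¹, conj_mem_of_stronglyClosed_group hT hx ((hfS _).2 hv), ?_⟩
            simp [map_mul, mul_assoc]
          · exact ⟨1, T.one_mem, by simp [oneP, img_one]⟩
    obtain ⟨x, hx, hx1⟩ := T.ne_bot_iff_exists_ne_one.1 hT1 |> fun ⟨x, hx⟩ =>
      (⟨x.1, x.2, fun h => hx (Subtype.ext h)⟩ : ∃ x, x ∈ T ∧ x ≠ 1)
    obtain ⟨b, hb, hbx⟩ := List.mem_map.mp ((hfS x).1 (hT.1 hx))
    obtain ⟨i, hi, hib⟩ := List.mem_iff_getElem.mp hb
    have hgi : c.sylow.getD i (oneP n) = b := by
      rw [List.getD_eq_getElem?_getD, List.getElem?_eq_getElem hi, hib]; rfl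
    have hbe : b = (img (f x), img (f x)⁻¹) := by
      obtain ⟨y, -, rfl⟩ := hsylF b hb
      obtain rfl : y = x := hf (img_injective hbx)
      rfl
    have h1 := hto i (List.mem_range.mpr hi)
    rw [hgi, hbe] at h1
    rw [Bool.or_eq_true] at h1
    rcases h1 with h1 | h1
    · refine absurd (hf (img_injective (?_ : img (f x) = img (f 1)))) hx1
      rw [map_one, img_one]
      exact beq_iff_eq.mp h1
    have hk1 : Known [(img (f x), img (f x)⁻¹)] := fun a ha => ⟨x, hx, List.mem_singleton.mp ha⟩
    obtain ⟨a, ha, hae⟩ := List.mem_map.mp (List.contains_iff_mem.mp h1)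
    obtain ⟨z, hz, rfl⟩ := hderive _ _ hk1 a ha
    have hk2 : Known [c.sylow.getD c.pivot (oneP n)] := fun a ha => by
      refine ⟨z, hz, ?_⟩
      rw [List.mem_singleton.mp ha]
      have hgp : c.sylow.getD c.pivot (oneP n) ∈ c.sylow := by
        rw [List.getD_eq_getElem?_getD, List.getElem?_eq_getElem hpiv]
        exact List.getElem_mem hpiv
      obtain ⟨y, -, hy⟩ := hsylF _ hgp
      rw [hy] at hae ⊢
      rw [hf (img_injective hae)]
    intro y hy
    obtain ⟨a, ha, hay⟩ := List.mem_map.mp (List.contains_iff_mem.mp (hfrom _ ((hfS y).1 hy)))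
    obtain ⟨w, hw, rfl⟩ := hderive _ _ hk2 a ha
    rwa [← hf (img_injective hay)]

end Cfsg.Agent.H94
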