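import Cfsg.Agent.H94.MathieuFusionData
import Cfsg.Agent.H13.Groups

/-! The 2-fusion systems of the Mathieu groups of degree 11 and 12 are simple. -/

set_option autoImplicit false

namespace Cfsg.Agent.H94.MathieuFusion

open Cfsg Cfsg.Agent.H13 Cfsg.Agent.H13.Data

theorem range_toFin (g : List PL) {M : Subgroup (Equiv.Perm GolayPt)} (h : M = grp g) :
    (toFin.toMonoidHom.comp M.subtype).range = genGroup 24 g := by
  subst h
  ext σ
  constructor
  · rintro ⟨x, rfl⟩
    exact mem_grp.mp x.2
  · exact fun hσ => ⟨⟨toFin.symm σ, mem_grp.mpr (by rwa [toFin.apply_symm_apply])⟩, toFin.apply_symm_apply σ⟩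

theorem m11_ok : m11.ok 24 g11 = true := by decide +kernel

theorem m12_ok : m12.ok 24 g12 = true := by decide +kernel

/-- The 2-fusion system of M₁₁ is simple. -/
theorem m11_simple (S : Sylow 2 Spor.M11) : (groupFusionSystem (S : Subgroup Spor.M11)).IsSimple 2 :=
  isSimple_of_fusionCert S _ (toFin.injective.comp Subtype.val_injective) g11_valid
    (range_toFin g11 M11_eq) m11_ok 4 495 (by norm_num) (by rfl) (by decide +kernel) (by norm_num)

/-- The 2-fusion system of M₁₂ is simple. -/
theorem m12_simple (S : Sylow 2 Spor.M12) : (groupFusionSystem (S : Subgroup Spor.M12)).IsSimple 2 :=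
  isSimple_of_fusionCert S _ (toFin.injective.comp Subtype.val_injective) g12_valid
    (range_toFin g12 M12_eq) m12_ok 6 1485 (by norm_num) (by rfl) (by decide +kernel) (by norm_num)

end Cfsg.Agent.H94.MathieuFusion
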